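import Cfsg.Agent.Lib.Helper10.Mult.Stem

/-!
Versions of the checkers which force the evaluation of intermediate numbers (the kernel evaluates lazily and does not
share the values of repeated subterms).
-/

set_option autoImplicit false

namespace Cfsg.Agent.Lib.Helper10.TCL

/-- strict application: the recursor forces the evaluation of `n`. -/
noncomputable def strict {α : Type} (n : ℕ) (f : ℕ → α) : α :=
  Nat.rec (motive := fun _ => α) (f 0) (fun m _ => f (Nat.succ m)) n

theorem strict_eq {α : Type} (n : ℕ) (f : ℕ → α) : strict n f = f n := by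
  cases n <;> rfl

/-- table lookup in chunks of 2048 entries of `w` bits. -/
noncomputable def lookS (w mask : ℕ) (ch : ℕ → ℕ) (i : ℕ) : ℕ :=
  strict i fun i' => strict (Nat.shiftRight i' 11) fun c =>
    Nat.land (Nat.shiftRight (ch c) (Nat.mul w (Nat.land i' 2047))) mask

/-- table lookup in chunks of `2 ^ b` entries of `w` bits (`lm = 2 ^ b - 1`). -/
noncomputable def lookC (b lm w mask : ℕ) (ch : ℕ → ℕ) (i : ℕ) : ℕ :=
  strict i fun i' => strict (Nat.shiftRight i' b) fun c =>
    Nat.land (Nat.shiftRight (ch c) (Nat.mul w (Nat.land i' lm))) mask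

noncomputable def allS : ℕ → ℕ → (ℕ → Bool) → Bool
  | 0, lo, f => f lo
  | k + 1, lo, f => allS k lo f && strict (lo + 2 ^ k) fun lo' => allS k lo' f

theorem allS_spec : ∀ (k lo : ℕ) (f : ℕ → Bool), allS k lo f = true → ∀ i, lo ≤ i → i < lo + 2 ^ k → f i = true
  | 0, lo, f, h, i, h1, h2 => by
    have : i = lo := by simp at h2; omega
    rw [this]; exact h
  | k + 1, lo, f, h, i, h1, h2 => by
    rw [allS, strict_eq, Bool.and_eq_true] at h
    rw [pow_succ] at h2
    by_cases hi : i < lo + 2 ^ k
    · exact allS_spec k lo f h.1 i h1 hi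
    · exact allS_spec k (lo + 2 ^ k) f h.2 i (by omega) (by omega)

section checker
variable (E P : ℕ → ℕ) (rel rl : ℕ → List ℕ) (isSub : ℕ → Bool) (R C k wd mask N : ℕ)

noncomputable def walkF (τ : ℕ) : List ℕ → ℕ → ℕ → List ℕ → List ℕ → Bool
  | [], u, v, acc, tg => Nat.beq u v && eqMod N acc tg
  | c :: w, u, v, acc, tg => strict (E (Nat.add (Nat.mul u C) c)) fun e =>
      Nat.blt c C && (Nat.blt (Nat.land (Nat.shiftRight e 17) 1048575) τ &&
      walkF τ w (Nat.land e 131071) v (addV acc (unp wd mask k (Nat.shiftRight e 53))) tg)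

theorem walkF_eq (τ : ℕ) : ∀ (w : List ℕ) (u v : ℕ) (acc tg : List ℕ),
    walkF E C k wd mask N τ w u v acc tg = walkOk E C k wd mask N τ w u v acc tg
  | [], _, _, _, _ => rfl
  | c :: w, u, v, acc, tg => by
    rw [walkF, strict_eq, walkF_eq τ w]
    rfl

noncomputable def chkEF (v c : ℕ) : Bool :=
  strict (E (Nat.add (Nat.mul v C) c)) fun e => strict (Nat.land e 131071) fun t =>
  Nat.blt t R &&
    cond (Nat.beq (Nat.land (Nat.shiftRight e 37) 3) 0)
      (Nat.blt v t && (Nat.beq (pPar P t) v && (Nat.beq (pLet P t) c &&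
        eqMod N (unp wd mask k (Nat.shiftRight e 53)) [])))
      (cond (Nat.beq (Nat.land (Nat.shiftRight e 37) 3) 1)
        (Nat.beq v 0 && (Nat.beq t 0 && (isSub c && eqMod N (unp wd mask k (Nat.shiftRight e 53)) [])))
        (match (rel (Nat.land (Nat.shiftRight e 39) 63)).rotate (Nat.land (Nat.shiftRight e 45) 255) with
          | [] => false
          | d :: w => Nat.beq d c && walkF E C k wd mask N (Nat.land (Nat.shiftRight e 17) 1048575) w t v
              (unp wd mask k (Nat.shiftRight e 53)) (rl (Nat.land (Nat.shiftRight e 39) 63))))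

theorem chkEF_eq (v c : ℕ) : chkEF E P rel rl isSub R C k wd mask N v c = chkE E P rel rl isSub R C k wd mask N v c := by
  unfold chkEF chkE
  rw [strict_eq, strict_eq]
  congr 1
  congr 1
  congr 1
  show _ = chkRel E C k wd mask N v c (rl (eI E C v c)) ((rel (eI E C v c)).rotate (eP E C v c))
  show (match (rel (eI E C v c)).rotate (eP E C v c) with
    | [] => false
    | d :: w => Nat.beq d c && walkF E C k wd mask N (eS E C v c) w (eT E C v c) v
              (eL E C k wd mask v c) (rl (eI E C v c))) = _
  cases (rel (eI E C v c)).rotate (eP E C v c) with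
  | nil => rfl
  | cons d w =>
    show (Nat.beq d c && walkF E C k wd mask N (eS E C v c) w (eT E C v c) v
              (eL E C k wd mask v c) (rl (eI E C v c))) = _
    rw [walkF_eq]
    rfl

noncomputable def chkIF (i : ℕ) : Bool :=
  Nat.ble (Nat.mul R C) i || strict (Nat.div i C) fun v => strict (Nat.mod i C) fun c =>
    chkEF E P rel rl isSub R C k wd mask N v c

theorem chkE_of_chkIF (h : ∀ i < R * C, chkIF E P rel rl isSub R C k wd mask N i = true) :
    ∀ v < R, ∀ c < C, chkE E P rel rl isSub R C k wd mask N v c = true := by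
  intro v hv c hc
  have hlt : v * C + c < R * C := by
    calc v * C + c < v * C + C := by omega
      _ = (v + 1) * C := by ring
      _ ≤ R * C := Nat.mul_le_mul_right C hv
  have h1 := h _ hlt
  unfold chkIF at h1
  rw [strict_eq, strict_eq, chkEF_eq, Bool.or_eq_true] at h1
  rcases h1 with h1 | h1
  · rw [Nat.ble_eq] at h1
    have : R * C ≤ v * C + c := h1
    omega
  · have e1 : Nat.div (v * C + c) C = v := by
      show (v * C + c) / C = v
      rw [mul_comm, Nat.mul_add_div (by omega), Nat.div_eq_of_lt hc, add_zero]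
    have e2 : Nat.mod (v * C + c) C = c := by
      show (v * C + c) % C = c
      rw [mul_comm, Nat.mul_add_mod, Nat.mod_eq_of_lt hc]
    rwa [e1, e2] at h1

noncomputable def chkClF (q : ℕ × ℕ × List ℕ) : Bool :=
  Nat.blt q.1 R && walkF E C k wd mask N 1048576 (rel q.2.1) q.1 q.1 [] q.2.2

theorem chkClF_eq (q : ℕ × ℕ × List ℕ) : chkClF E rel R C k wd mask N q = chkCl E rel R C k wd mask N q := by
  unfold chkClF chkCl
  rw [walkF_eq]

end checker

end Cfsg.Agent.Lib.Helper10.TCL
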