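import Cfsg.Agent.Lib.Helper10.Mult.Lin

/-!
Lifts of elements of order prime to the kernel, and lifts of a metacyclic subgroup.
-/

set_option autoImplicit false

namespace Cfsg.Agent.Lib.Helper10.TCL

open Cfsg.Agent.Lib.Helper10.TCS Subgroup

section
variable {Γ G : Type*} [Group Γ] [Group G] (σ : Γ →* G)

theorem exists_lift_pow (hcen : ∀ z, σ z = 1 → ∀ g, z * g = g * z) (hs : Function.Surjective σ) (N : ℕ)
    (hexp : ∀ z, σ z = 1 → z ^ N = 1) (hN1 : 1 < N) (x : G) (p : ℕ) (hx : x ^ p = 1) (hp : Nat.Coprime p N) :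
    ∃ y, σ y = x ∧ y ^ p = 1 := by
  obtain ⟨y0, hy0⟩ := hs x
  have hz0 : σ (y0 ^ p) = 1 := by rw [map_pow, hy0, hx]
  obtain ⟨p', -, hp'⟩ := Nat.exists_mul_mod_eq_one_of_coprime hp hN1
  have hz1 : σ ((y0 ^ p) ^ p')⁻¹ = 1 := by rw [map_inv, map_pow, hz0, one_pow, inv_one]
  refine ⟨y0 * ((y0 ^ p) ^ p')⁻¹, by rw [map_mul, hz1, mul_one, hy0], ?_⟩
  have hC : Commute y0 ((y0 ^ p) ^ p')⁻¹ := (hcen _ hz1 y0).symm
  rw [hC.mul_pow, inv_pow, ← pow_mul, mul_comm p' p, pow_eq_pow_mod _ (hexp _ hz0), hp', pow_one, mul_inv_cancel]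

theorem lift_unique (hcen : ∀ z, σ z = 1 → ∀ g, z * g = g * z) (N : ℕ)
    (hexp : ∀ z, σ z = 1 → z ^ N = 1) (p : ℕ) (hp : Nat.Coprime p N) (y y' : Γ) (h : σ y = σ y')
    (h1 : y ^ p = 1) (h2 : y' ^ p = 1) : y = y' := by
  have hz : σ (y⁻¹ * y') = 1 := by rw [map_mul, map_inv, h, inv_mul_cancel]
  have hC : Commute y (y⁻¹ * y') := (hcen _ hz y).symm
  have e : y' = y * (y⁻¹ * y') := by group
  have h3 : (y⁻¹ * y') ^ p = 1 := by
    have := h2
    rw [e, hC.mul_pow, h1, one_mul] at this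
    exact this
  have h4 := pow_gcd_eq_one.2 ⟨h3, hexp _ hz⟩
  rw [Nat.Coprime.gcd_eq_one hp, pow_one] at h4
  rw [e, h4, mul_one]

/-- the subgroup generated by lifts of the generators of a metacyclic group. -/
theorem frob_K (a b : Γ) (p q m : ℕ) (ha : a ^ p = 1) (hb : b ^ q = 1) (hab : b * a * b⁻¹ = a ^ m)
    (hp : 0 < p) (hq : 0 < q) (hoa : orderOf (σ a) = p) (hob : orderOf (σ b) = q) (hpq : Nat.Coprime p q) :
    Finite (closure ({a, b} : Set Γ)) ∧ Nat.card (closure ({a, b} : Set Γ)) ≤ p * q ∧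
      ∀ x ∈ closure ({a, b} : Set Γ), σ x = 1 → x = 1 := by
  have hconj : ∀ i : ℕ, b * a ^ i = a ^ (m * i) * b := by
    intro i
    have : b * a ^ i * b⁻¹ = a ^ (m * i) := by
      rw [pow_mul, ← hab, conj_pow]
    rw [← this]; group
  have stepa : ∀ x : Γ, (∃ i j : ℕ, x = a ^ i * b ^ j) → ∃ i j : ℕ, a * x = a ^ i * b ^ j := by
    rintro _ ⟨i, j, rfl⟩
    exact ⟨i + 1, j, by rw [pow_succ' a i]; group⟩
  have stepb : ∀ x : Γ, (∃ i j : ℕ, x = a ^ i * b ^ j) → ∃ i j : ℕ, b * x = a ^ i * b ^ j := by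
    rintro _ ⟨i, j, rfl⟩
    exact ⟨m * i, j + 1, by rw [← mul_assoc, hconj, pow_succ' b j]; group⟩
  have iter : ∀ (g : Γ), (∀ x : Γ, (∃ i j : ℕ, x = a ^ i * b ^ j) → ∃ i j : ℕ, g * x = a ^ i * b ^ j) →
      ∀ (n : ℕ) (x : Γ), (∃ i j : ℕ, x = a ^ i * b ^ j) → ∃ i j : ℕ, g ^ n * x = a ^ i * b ^ j := by
    intro g hg n
    induction n with
    | zero => intro x hx; simpa using hx
    | succ n ih =>
      intro x hx
      rw [pow_succ', mul_assoc]
      exact hg _ (ih x hx)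
  have ea : a⁻¹ = a ^ (p - 1) := by
    apply inv_eq_of_mul_eq_one_right
    rw [← pow_succ', Nat.sub_add_cancel hp, ha]
  have eb : b⁻¹ = b ^ (q - 1) := by
    apply inv_eq_of_mul_eq_one_right
    rw [← pow_succ', Nat.sub_add_cancel hq, hb]
  have key : ∀ x ∈ closure ({a, b} : Set Γ), ∃ i j : ℕ, x = a ^ i * b ^ j := by
    intro x hx
    induction hx using closure_induction_left with
    | one => exact ⟨0, 0, by simp⟩
    | mul_left x hx y _ ih =>
      rcases hx with rfl | rfl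
      · exact stepa y ih
      · exact stepb y ih
    | inv_mul_cancel x hx y _ ih =>
      rcases hx with rfl | rfl
      · rw [ea]; exact iter _ stepa _ y ih
      · rw [eb]; exact iter _ stepb _ y ih
  have hex : ∀ x : closure ({a, b} : Set Γ), ∃ r : Fin p × Fin q, (x : Γ) = a ^ (r.1 : ℕ) * b ^ (r.2 : ℕ) := by
    intro x
    obtain ⟨i, j, e⟩ := key x x.2
    refine ⟨(⟨i % p, Nat.mod_lt _ hp⟩, ⟨j % q, Nat.mod_lt _ hq⟩), ?_⟩
    rw [e, pow_eq_pow_mod i ha, pow_eq_pow_mod j hb]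
  choose f hf using hex
  have hinj : Function.Injective f := by
    intro x y hxy
    apply Subtype.ext
    rw [hf x, hf y, hxy]
  refine ⟨Finite.of_injective f hinj, ?_, ?_⟩
  · have := Nat.card_le_card_of_injective f hinj
    rwa [Nat.card_prod, Nat.card_fin, Nat.card_fin] at this
  · intro x hx h1
    obtain ⟨i, j, rfl⟩ := key x hx
    rw [map_mul, map_pow, map_pow] at h1
    have e1 : σ a ^ i = (σ b ^ j)⁻¹ := eq_inv_of_mul_eq_one_left h1
    have e2 : (σ a ^ i) ^ q = 1 := by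
      rw [e1, inv_pow, ← pow_mul, mul_comm, pow_mul, ← hob, pow_orderOf_eq_one, one_pow, inv_one]
    have e3 : (σ a ^ i) ^ p = 1 := by
      rw [← pow_mul, mul_comm, pow_mul, ← hoa, pow_orderOf_eq_one, one_pow]
    have e4 := pow_gcd_eq_one.2 ⟨e3, e2⟩
    rw [Nat.Coprime.gcd_eq_one hpq, pow_one] at e4
    have e5 : σ b ^ j = 1 := by rw [e4] at e1; exact inv_eq_one.1 e1.symm
    have d1 : p ∣ i := hoa ▸ orderOf_dvd_of_pow_eq_one e4
    have d2 : q ∣ j := hob ▸ orderOf_dvd_of_pow_eq_one e5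
    obtain ⟨i', rfl⟩ := d1
    obtain ⟨j', rfl⟩ := d2
    rw [pow_mul, pow_mul, ha, hb, one_pow, one_pow, one_mul]

end

end Cfsg.Agent.Lib.Helper10.TCL
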