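import Cfsg.Agent.Lib.Helper10.Mult.TCL

/-!
Linear algebra on the relations between the central elements, and the resulting bound for the order.
-/

set_option autoImplicit false

namespace Cfsg.Agent.Lib.Helper10.TCL

open Cfsg.Agent.Lib.Helper10.TCS

def linA : List ℕ → List (List ℕ × List ℕ) → List ℕ
  | l :: ls, p :: t => addV (smulV l p.1) (linA ls t)
  | [], _ => []
  | _ :: _, [] => []

def linB : List ℕ → List (List ℕ × List ℕ) → List ℕ
  | l :: ls, p :: t => addV (smulV l p.2) (linB ls t)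
  | [], _ => []
  | _ :: _, [] => []

def chkLin (N : ℕ) (Rs : List (List ℕ × List ℕ)) (X Y ls : List ℕ) : Bool :=
  eqMod N (addV X (linA ls Rs)) (addV Y (linB ls Rs))

def unit (j : ℕ) : List ℕ := List.replicate j 0 ++ [1]

section
variable {Γ : Type*} [Group Γ] (cen : ℕ → Γ)

theorem cv_unit : ∀ (j i : ℕ), cv cen i (unit j) = cen (i + j)
  | 0, i => by simp [unit, cv]
  | j + 1, i => by
    have h := cv_unit j (i + 1)
    unfold unit at h ⊢
    rw [List.replicate_succ, List.cons_append, cv, h]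
    simp [add_assoc, add_comm 1 j]

variable (hc : ∀ j g, cen j * g = g * cen j)
include hc

theorem lin_eq : ∀ (Rs : List (List ℕ × List ℕ)), (∀ p ∈ Rs, cv cen 0 p.1 = cv cen 0 p.2) → ∀ ls : List ℕ,
    cv cen 0 (linA ls Rs) = cv cen 0 (linB ls Rs)
  | [], _, [] => rfl
  | [], _, _ :: _ => rfl
  | _ :: _, _, [] => rfl
  | p :: t, h, l :: ls => by
    rw [linA, linB, cv_addV cen hc, cv_addV cen hc, cv_smulV cen hc, cv_smulV cen hc,
      h p (List.mem_cons_self), lin_eq t (fun q hq => h q (List.mem_cons_of_mem _ hq)) ls]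

theorem lin_sound (N : ℕ) (hN : ∀ j, cen j ^ N = 1) (Rs : List (List ℕ × List ℕ))
    (h : ∀ p ∈ Rs, cv cen 0 p.1 = cv cen 0 p.2) (X Y ls : List ℕ) (hchk : chkLin N Rs X Y ls = true) :
    cv cen 0 X = cv cen 0 Y := by
  have h1 := cv_eqMod cen N hN _ _ 0 hchk
  rw [cv_addV cen hc, cv_addV cen hc, lin_eq cen hc Rs h ls] at h1
  exact mul_right_cancel h1

end

/-- the subgroup generated by two commuting elements of bounded orders. -/
theorem card_two {Γ : Type*} [Group Γ] (g1 g2 : Γ) (hcomm : g1 * g2 = g2 * g1) (o1 o2 : ℕ) (h1 : g1 ^ o1 = 1)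
    (h2 : g2 ^ o2 = 1) (p1 : 0 < o1) (p2 : 0 < o2) :
    Finite (Subgroup.closure ({g1, g2} : Set Γ)) ∧ Nat.card (Subgroup.closure ({g1, g2} : Set Γ)) ≤ o1 * o2 := by
  have hC : Commute g1 g2 := hcomm
  have key : ∀ x ∈ Subgroup.closure ({g1, g2} : Set Γ), ∃ a b : ℕ, x = g1 ^ a * g2 ^ b := by
    intro x hx
    induction hx using Subgroup.closure_induction with
    | mem x hx =>
      rcases hx with rfl | rfl
      · exact ⟨1, 0, by simp⟩
      · exact ⟨0, 1, by simp⟩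
    | one => exact ⟨0, 0, by simp⟩
    | mul x y _ _ hx hy =>
      obtain ⟨a, b, rfl⟩ := hx
      obtain ⟨c, d, rfl⟩ := hy
      refine ⟨a + c, b + d, ?_⟩
      have h3 : Commute (g2 ^ b) (g1 ^ c) := (hC.pow_pow c b).symm
      calc g1 ^ a * g2 ^ b * (g1 ^ c * g2 ^ d) = g1 ^ a * (g2 ^ b * g1 ^ c) * g2 ^ d := by group
        _ = g1 ^ a * (g1 ^ c * g2 ^ b) * g2 ^ d := by rw [h3.eq]
        _ = _ := by rw [pow_add, pow_add]; group
    | inv x _ hx =>
      obtain ⟨a, b, rfl⟩ := hx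
      refine ⟨(o1 - 1) * a, (o2 - 1) * b, ?_⟩
      have e1 : g1⁻¹ = g1 ^ (o1 - 1) := by
        apply inv_eq_of_mul_eq_one_right
        rw [← pow_succ', Nat.sub_add_cancel p1, h1]
      have e2 : g2⁻¹ = g2 ^ (o2 - 1) := by
        apply inv_eq_of_mul_eq_one_right
        rw [← pow_succ', Nat.sub_add_cancel p2, h2]
      rw [pow_mul, pow_mul, ← e1, ← e2, mul_inv_rev, inv_pow, inv_pow]
      exact ((hC.pow_pow a b).inv_inv).eq.symm
  have hex : ∀ x : Subgroup.closure ({g1, g2} : Set Γ), ∃ q : Fin o1 × Fin o2,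
      (x : Γ) = g1 ^ (q.1 : ℕ) * g2 ^ (q.2 : ℕ) := by
    intro x
    obtain ⟨a, b, e⟩ := key x x.2
    refine ⟨(⟨a % o1, Nat.mod_lt _ p1⟩, ⟨b % o2, Nat.mod_lt _ p2⟩), ?_⟩
    rw [e, pow_eq_pow_mod a h1, pow_eq_pow_mod b h2]
  choose f hf using hex
  have hinj : Function.Injective f := by
    intro a b hab
    apply Subtype.ext
    rw [hf a, hf b, hab]
  refine ⟨Finite.of_injective f hinj, ?_⟩
  have := Nat.card_le_card_of_injective f hinj
  rwa [Nat.card_prod, Nat.card_fin, Nat.card_fin] at this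

/-- the data of the linear algebra: for the variable `j` the two exponents and the coefficients. -/
def chkVar (N j0 j1 : ℕ) (Rs : List (List ℕ × List ℕ)) (m1 m2 : ℕ → ℕ) (lam : ℕ → List ℕ) (j : ℕ) : Bool :=
  chkLin N Rs (unit j) (addV (smulV (m1 j) (unit j0)) (smulV (m2 j) (unit j1))) (lam j)

section main
variable {Γ : Type*} [Group Γ] (val : ℕ → Γ) (K : Subgroup Γ) (cen : ℕ → Γ)
variable (E P : ℕ → ℕ) (rel rl : ℕ → List ℕ) (isSub : ℕ → Bool) (R C k wd mask N : ℕ)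

theorem main_bound (hc : ∀ j g, cen j * g = g * cen j) (hN : ∀ j, cen j ^ N = 1)
    (hrel : ∀ i, wv val (rel i) = cv cen 0 (rl i)) (hsub : ∀ c, isSub c = true → val c ∈ K)
    (hchk : ∀ v < R, ∀ c < C, chkE E P rel rl isSub R C k wd mask N v c = true)
    (inv : ℕ → ℕ) (hinv : ∀ c < C, inv c < C ∧ val (inv c) = (val c)⁻¹) (hR : 0 < R)
    (A : Subgroup Γ) (hA : ∀ j, cen j ∈ A) (hKA : ∀ x ∈ K, x ∈ A → x = 1) [Finite K]
    (cl : List (ℕ × ℕ × List ℕ)) (hcl : ∀ q ∈ cl, chkCl E rel R C k wd mask N q = true)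
    (hk : ∀ j, k ≤ j → cen j = 1)
    (j0 j1 o1 o2 : ℕ) (m1 m2 : ℕ → ℕ) (lam : ℕ → List ℕ) (l1 l2 : List ℕ) (p1 : 0 < o1) (p2 : 0 < o2)
    (hvar : ∀ j < k, chkVar N j0 j1 (cl.map (fun q => (rl q.2.1, q.2.2))) m1 m2 lam j = true)
    (ho1 : chkLin N (cl.map (fun q => (rl q.2.1, q.2.2))) (smulV o1 (unit j0)) [] l1 = true)
    (ho2 : chkLin N (cl.map (fun q => (rl q.2.1, q.2.2))) (smulV o2 (unit j1)) [] l2 = true) :
    Finite (Subgroup.closure {x | ∃ c < C, x = val c}) ∧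
    Nat.card (Subgroup.closure {x | ∃ c < C, x = val c}) ≤ R * (Nat.card K * (o1 * o2)) := by
  set Rs := cl.map (fun q => (rl q.2.1, q.2.2)) with hRs
  have hR1 : ∀ p ∈ Rs, cv cen 0 p.1 = cv cen 0 p.2 := by
    intro p hp
    rw [hRs, List.mem_map] at hp
    obtain ⟨q, hq, rfl⟩ := hp
    exact closed_rel val K cen E P rel rl isSub R C k wd mask N hc hN hrel hsub hchk A hA hKA q (hcl q hq)
  have e1 : cen j0 ^ o1 = 1 := by
    have := lin_sound cen hc N hN Rs hR1 _ _ _ ho1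
    rw [cv_smulV cen hc, cv_unit, zero_add] at this
    exact this
  have e2 : cen j1 ^ o2 = 1 := by
    have := lin_sound cen hc N hN Rs hR1 _ _ _ ho2
    rw [cv_smulV cen hc, cv_unit, zero_add] at this
    exact this
  obtain ⟨f1, f2⟩ := card_two (cen j0) (cen j1) (hc j0 _) o1 o2 e1 e2 p1 p2
  set Z := Subgroup.closure ({cen j0, cen j1} : Set Γ) with hZdef
  have hZ : ∀ j, cen j ∈ Z := by
    intro j
    by_cases hj : j < k
    · have := lin_sound cen hc N hN Rs hR1 _ _ _ (hvar j hj)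
      rw [cv_addV cen hc, cv_smulV cen hc, cv_smulV cen hc, cv_unit, cv_unit, cv_unit, zero_add, zero_add,
        zero_add] at this
      rw [this]
      exact Z.mul_mem (Z.pow_mem (Subgroup.subset_closure (by simp)) _)
        (Z.pow_mem (Subgroup.subset_closure (by simp)) _)
    · rw [hk j (by omega)]
      exact Z.one_mem
  have hZc : ∀ z ∈ Z, ∀ g, z * g = g * z := by
    have : Z ≤ Subgroup.center Γ := by
      rw [hZdef, Subgroup.closure_le]
      rintro x (rfl | rfl)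
      · exact Subgroup.mem_center_iff.2 (fun g => (hc j0 g).symm)
      · exact Subgroup.mem_center_iff.2 (fun g => (hc j1 g).symm)
    intro z hz g
    exact (Subgroup.mem_center_iff.1 (this hz) g).symm
  obtain ⟨g1, g2⟩ := card_le val K cen E P rel rl isSub R C k wd mask N hc hN hrel hsub hchk inv hinv hR Z hZ hZc
  refine ⟨g1, g2.trans ?_⟩
  exact Nat.mul_le_mul_left _ (Nat.mul_le_mul_left _ f2)

end main

end Cfsg.Agent.Lib.Helper10.TCL
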