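import Cfsg.Agent.Lib.Helper10.Mult.ModelG

set_option autoImplicit false

namespace Cfsg.Agent.Lib.Helper10.TCL

theorem hM_of_chk (Mt : ℕ → ℕ) (R o : ℕ) (h : ∀ i < R * 6, chkInv Mt R o i = true) :
    ∀ v < R, ∀ c < 6, mT Mt v c < R ∧ mT Mt (mT Mt v c) (inv6 c) = v ∧
      (mL Mt v c + mL Mt (mT Mt v c) (inv6 c)) % o = 0 := by
  intro v hv c hc
  have hlt : v * 6 + c < R * 6 := by omega
  have h1 := h _ hlt
  unfold chkInv at h1
  rw [strict_eq, strict_eq, strict_eq, Bool.or_eq_true] at h1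
  rcases h1 with h1 | h1
  · rw [Nat.ble_eq] at h1
    have : R * 6 ≤ v * 6 + c := h1
    omega
  · have e1 : Nat.div (v * 6 + c) 6 = v := by
      show (v * 6 + c) / 6 = v
      omega
    have e2 : Nat.mod (v * 6 + c) 6 = c := by
      show (v * 6 + c) % 6 = c
      omega
    rw [e1, e2, Bool.and_eq_true, Bool.and_eq_true, Nat.blt_eq] at h1
    exact ⟨h1.1, Nat.eq_of_beq_eq_true h1.2.1, Nat.eq_of_beq_eq_true h1.2.2⟩

theorem chkW_of_row (Mt : ℕ → ℕ) (R o : ℕ) (wr : List ℕ) (t : ℕ) (h : ∀ v < R, chkRow Mt R o wr t v = true) :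
    ∀ v < R, chkW Mt o wr v 0 v t = true := by
  intro v hv
  have h1 := h v hv
  unfold chkRow at h1
  rw [Bool.or_eq_true] at h1
  rcases h1 with h1 | h1
  · rw [Nat.ble_eq] at h1
    omega
  · exact h1

end Cfsg.Agent.Lib.Helper10.TCL
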