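import Cfsg.Agent.Lib.Helper10.Mult.M22Data
import Cfsg.Agent.Lib.Helper10.Mult.ModelC

set_option autoImplicit false

namespace Cfsg.Agent.Lib.Helper10.M22M

open Cfsg.Agent.Lib.Helper10.TCL

def relF (i : ℕ) : List ℕ := relL.getD i []
def revF (i : ℕ) : List ℕ := revL.getD i []
def muF (i : ℕ) : ℕ := muL.getD i 0
def subF (c : ℕ) : Bool := Nat.blt c 4

noncomputable def cert : Cert where
  E := tabE
  P := tabP
  rel := relF
  isSub := subF
  R := 8064
  C := 6
  k := 7
  wd := 13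
  mask := 8191
  cl := clL
  j0 := 5
  j1 := 6
  o1 := 12
  o2 := 1
  m1 := fun j => m1L.getD j 0
  m2 := fun _ => 0
  lam := fun j => lamL.getD j []
  l1 := l1L
  l2 := l2L

end Cfsg.Agent.Lib.Helper10.M22M
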