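import Cfsg.Agent.Lib.Helper10.Mult.M22Defs
import Cfsg.Agent.Lib.Helper88.O22
import Cfsg.Agent.Lib.Helper88.MGroups
import Cfsg.Agent.Lib.Helper94.GolayChain

/-!
The three generators of the Mathieu group of degree 22 and the relators.
-/

set_option autoImplicit false
set_option maxRecDepth 100000
open scoped Pointwise

namespace Cfsg.Agent.Lib.Helper10.M22M

open Cfsg Cfsg.Spor Cfsg.Agent.Lib.Helper10.TCL Cfsg.Agent.Lib.Helper10.TCS Cfsg.Agent.Lib.Helper94
  Cfsg.Agent.Lib.Helper88 Cfsg.Agent.Lib.Helper88.OChains Subgroup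

def wc : ℕ := 1037378907678398332147026938683444568635575645995925284614783843127063750218454739222509432056916924292881204217989503176833193830071305399548402052427446281467859902504869063294977

theorem wcs_eq : O22.wcs = [wc] := rfl

theorem hwc : inGG 8388609 16777215 wc = true := by decide +kernel

abbrev GM : Type := ↥(GG 8388609 16777215)

noncomputable def gu : GM := mkG O22.cert.hD chBc O22.hu
noncomputable def gv : GM := mkG O22.cert.hD chDc O22.hv
noncomputable def gw : GM := mkG O22.cert.hD wc hwc

theorem gen_top : closure ({gu, gv, gw} : Set GM) = ⊤ := by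
  rw [eq_top_iff, ← O22.cert.closure_top, closure_le]
  rintro x (hx | hx)
  · rcases hx with rfl | rfl
    · exact subset_closure (by simp [gu])
    · exact subset_closure (by simp [gv])
  · have hx' : x ∈ mkL O22.cert.hD O22.wcs O22.cert.hw := hx
    have h1 : code (x : Equiv.Perm GolayPt) ∈ (mkL O22.cert.hD O22.wcs O22.cert.hw).map
        (fun g : GM => code (g : Equiv.Perm GolayPt)) := List.mem_map.2 ⟨x, hx', rfl⟩
    rw [map_code_mkL, wcs_eq, List.mem_singleton] at h1
    have h2 : x = gw := by
      apply Subtype.ext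
      apply code_injective
      rw [h1, gw, code_mkG]
    rw [h2]
    exact subset_closure (by simp)

/-- the codes of the letters. -/
noncomputable def cdL (c : ℕ) : ℕ :=
  if c = 0 then chBc else if c = 1 then invM chBc else if c = 2 then chDc else if c = 3 then invM chDc else
    if c = 4 then wc else if c = 5 then invM wc else idM

noncomputable def evC : List ℕ → ℕ
  | [] => idM
  | c :: t => mulM (cdL c) (evC t)

theorem code_lv (c : ℕ) : code ((lv gu gv gw c : GM) : Equiv.Perm GolayPt) = cdL c := by
  unfold lv cdL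
  split_ifs
  · exact code_mkG _ _ _
  · rw [InvMemClass.coe_inv, code_inv]; congr 1
  · exact code_mkG _ _ _
  · rw [InvMemClass.coe_inv, code_inv]; congr 1
  · exact code_mkG _ _ _
  · rw [InvMemClass.coe_inv, code_inv]; congr 1
  · exact code_one

theorem code_wv : ∀ r : List ℕ, code ((wv (lv gu gv gw) r : GM) : Equiv.Perm GolayPt) = evC r
  | [] => code_one
  | c :: t => by
    rw [wv_cons, MulMemClass.coe_mul, code_mul, code_lv, code_wv t]
    rfl

theorem vrel : relL.all (fun r => Nat.beq (evC r) idM) = true := by decide +kernel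

theorem relG : ∀ i, wv (lv gu gv gw) (relF i) = 1 := by
  apply forall_getD relL (fun r => wv (lv gu gv gw) r = 1) rfl
  intro r hr
  have h := (List.all_eq_true.1 vrel) r hr
  apply Subtype.ext
  apply code_injective
  rw [code_wv, Nat.eq_of_beq_eq_true h]
  exact code_one.symm

theorem M22_eq_fix : M22 = fixG [0, 23] := by
  ext g
  rw [M22, M23, mem_inf, mem_inf, MulAction.mem_stabilizer_iff, MulAction.mem_stabilizer_iff]
  constructor
  · rintro ⟨⟨h1, h2⟩, h3⟩
    refine ⟨h1, ?_⟩
    intro t ht
    simp only [List.mem_cons, List.not_mem_nil, or_false] at ht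
    rcases ht with rfl | rfl
    · exact h3
    · exact h2
  · rintro ⟨h1, h2⟩
    exact ⟨⟨h1, h2 23 (by simp)⟩, h2 0 (by simp)⟩

theorem card_GM : Nat.card GM = 8064 * (11 * 5) := by
  show Nat.card ↥(GG 8388609 16777215) = _
  rw [← M22_eq, M22_eq_fix, card_fixG2]

theorem gu_ne : gu ≠ 1 := by
  intro h
  have h1 : code (gu : Equiv.Perm GolayPt) = code (1 : Equiv.Perm GolayPt) := by rw [h]; rfl
  rw [gu, code_mkG, code_one] at h1
  exact O22.h8 h1

theorem hv8 : chDc ≠ idM := by decide +kernel

theorem gv_ne : gv ≠ 1 := by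
  intro h
  have h1 : code (gv : Equiv.Perm GolayPt) = code (1 : Equiv.Perm GolayPt) := by rw [h]; rfl
  rw [gv, code_mkG, code_one] at h1
  exact hv8 h1

end Cfsg.Agent.Lib.Helper10.M22M
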