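import Cfsg.Agent.Lib.Helper10.Mult.M22Defs

set_option autoImplicit false
set_option maxRecDepth 100000

namespace Cfsg.Agent.Lib.Helper10.M22M

open Cfsg.Agent.Lib.Helper10.TCL

theorem va0 : allS 11 0 (chkIF tabE tabP relF (rlk 7) subF 8064 6 7 13 8191 8064) = true := by decide +kernel
theorem va1 : allS 11 2048 (chkIF tabE tabP relF (rlk 7) subF 8064 6 7 13 8191 8064) = true := by decide +kernel
theorem va2 : allS 11 4096 (chkIF tabE tabP relF (rlk 7) subF 8064 6 7 13 8191 8064) = true := by decide +kernel
theorem va3 : allS 11 6144 (chkIF tabE tabP relF (rlk 7) subF 8064 6 7 13 8191 8064) = true := by decide +kernel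
theorem va4 : allS 11 8192 (chkIF tabE tabP relF (rlk 7) subF 8064 6 7 13 8191 8064) = true := by decide +kernel
theorem va5 : allS 11 10240 (chkIF tabE tabP relF (rlk 7) subF 8064 6 7 13 8191 8064) = true := by decide +kernel

end Cfsg.Agent.Lib.Helper10.M22M
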