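import Cfsg.Agent.Lib.Helper10.Mult.M22Defs

set_option autoImplicit false
set_option maxRecDepth 100000

namespace Cfsg.Agent.Lib.Helper10.M22M

open Cfsg.Agent.Lib.Helper10.TCL

theorem va6 : allS 11 12288 (chkIF tabE tabP relF (rlk 7) subF 8064 6 7 13 8191 8064) = true := by decide +kernel
theorem va7 : allS 11 14336 (chkIF tabE tabP relF (rlk 7) subF 8064 6 7 13 8191 8064) = true := by decide +kernel
theorem va8 : allS 11 16384 (chkIF tabE tabP relF (rlk 7) subF 8064 6 7 13 8191 8064) = true := by decide +kernel
theorem va9 : allS 11 18432 (chkIF tabE tabP relF (rlk 7) subF 8064 6 7 13 8191 8064) = true := by decide +kernel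
theorem va10 : allS 11 20480 (chkIF tabE tabP relF (rlk 7) subF 8064 6 7 13 8191 8064) = true := by decide +kernel
theorem va11 : allS 11 22528 (chkIF tabE tabP relF (rlk 7) subF 8064 6 7 13 8191 8064) = true := by decide +kernel

end Cfsg.Agent.Lib.Helper10.M22M
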