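import Cfsg.Agent.Lib.Helper10.Mult.M22Defs

set_option autoImplicit false
set_option maxRecDepth 100000

namespace Cfsg.Agent.Lib.Helper10.M22M

open Cfsg.Agent.Lib.Helper10.TCL

theorem va12 : allS 11 24576 (chkIF tabE tabP relF (rlk 7) subF 8064 6 7 13 8191 8064) = true := by decide +kernel
theorem va13 : allS 11 26624 (chkIF tabE tabP relF (rlk 7) subF 8064 6 7 13 8191 8064) = true := by decide +kernel
theorem va14 : allS 11 28672 (chkIF tabE tabP relF (rlk 7) subF 8064 6 7 13 8191 8064) = true := by decide +kernel
theorem va15 : allS 11 30720 (chkIF tabE tabP relF (rlk 7) subF 8064 6 7 13 8191 8064) = true := by decide +kernel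
theorem va16 : allS 11 32768 (chkIF tabE tabP relF (rlk 7) subF 8064 6 7 13 8191 8064) = true := by decide +kernel
theorem va17 : allS 11 34816 (chkIF tabE tabP relF (rlk 7) subF 8064 6 7 13 8191 8064) = true := by decide +kernel

end Cfsg.Agent.Lib.Helper10.M22M
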