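import Cfsg.Agent.Lib.Helper10.Mult.M22Defs

set_option autoImplicit false
set_option maxRecDepth 100000

namespace Cfsg.Agent.Lib.Helper10.M22M

open Cfsg.Agent.Lib.Helper10.TCL

theorem va18 : allS 11 36864 (chkIF tabE tabP relF (rlk 7) subF 8064 6 7 13 8191 8064) = true := by decide +kernel
theorem va19 : allS 11 38912 (chkIF tabE tabP relF (rlk 7) subF 8064 6 7 13 8191 8064) = true := by decide +kernel
theorem va20 : allS 11 40960 (chkIF tabE tabP relF (rlk 7) subF 8064 6 7 13 8191 8064) = true := by decide +kernel
theorem va21 : allS 11 43008 (chkIF tabE tabP relF (rlk 7) subF 8064 6 7 13 8191 8064) = true := by decide +kernel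
theorem va22 : allS 11 45056 (chkIF tabE tabP relF (rlk 7) subF 8064 6 7 13 8191 8064) = true := by decide +kernel
theorem va23 : allS 11 47104 (chkIF tabE tabP relF (rlk 7) subF 8064 6 7 13 8191 8064) = true := by decide +kernel

end Cfsg.Agent.Lib.Helper10.M22M
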