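import Cfsg.Agent.Lib.Helper10.Mult.M22Defs

set_option autoImplicit false
set_option maxRecDepth 100000

namespace Cfsg.Agent.Lib.Helper10.M22M

open Cfsg.Agent.Lib.Helper10.TCL

theorem vcl : clL.all (chkClF tabE relF 8064 6 7 13 8191 8064) = true := by decide +kernel
theorem vvar : (List.range 7).all (chkVar 8064 5 6 cert.Rs (fun j => m1L.getD j 0) (fun _ => 0)
    (fun j => lamL.getD j [])) = true := by decide +kernel
theorem vo1 : chkLin 8064 cert.Rs (smulV 12 (unit 5)) [] l1L = true := by decide +kernel
theorem vo2 : chkLin 8064 cert.Rs (smulV 1 (unit 6)) [] l2L = true := by decide +kernel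
theorem vinv0 : allS 13 0 (chkInv tabM 8064 12) = true := by decide +kernel
theorem vinv1 : allS 13 8192 (chkInv tabM 8064 12) = true := by decide +kernel
theorem vinv2 : allS 13 16384 (chkInv tabM 8064 12) = true := by decide +kernel
theorem vinv3 : allS 13 24576 (chkInv tabM 8064 12) = true := by decide +kernel
theorem vinv4 : allS 13 32768 (chkInv tabM 8064 12) = true := by decide +kernel
theorem vinv5 : allS 13 40960 (chkInv tabM 8064 12) = true := by decide +kernel

end Cfsg.Agent.Lib.Helper10.M22M
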