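import Cfsg.Agent.Lib.Helper10.Mult.M22Defs

set_option autoImplicit false
set_option maxRecDepth 100000

namespace Cfsg.Agent.Lib.Helper10.M22M

open Cfsg.Agent.Lib.Helper10.TCL

theorem vm5_0 : allS 11 0 (chkRow tabM 8064 12 (revF 5) (muF 5)) = true := by decide +kernel
theorem vm5_1 : allS 11 2048 (chkRow tabM 8064 12 (revF 5) (muF 5)) = true := by decide +kernel
theorem vm5_2 : allS 11 4096 (chkRow tabM 8064 12 (revF 5) (muF 5)) = true := by decide +kernel
theorem vm5_3 : allS 11 6144 (chkRow tabM 8064 12 (revF 5) (muF 5)) = true := by decide +kernel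

end Cfsg.Agent.Lib.Helper10.M22M
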