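import Cfsg.Agent.Lib.Helper10.Mult.M22Defs

set_option autoImplicit false
set_option maxRecDepth 100000

namespace Cfsg.Agent.Lib.Helper10.M22M

open Cfsg.Agent.Lib.Helper10.TCL

theorem vm0_0 : allS 11 0 (chkRow tabM 8064 12 (revF 0) (muF 0)) = true := by decide +kernel
theorem vm0_1 : allS 11 2048 (chkRow tabM 8064 12 (revF 0) (muF 0)) = true := by decide +kernel
theorem vm0_2 : allS 11 4096 (chkRow tabM 8064 12 (revF 0) (muF 0)) = true := by decide +kernel
theorem vm0_3 : allS 11 6144 (chkRow tabM 8064 12 (revF 0) (muF 0)) = true := by decide +kernel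
theorem vm1_0 : allS 11 0 (chkRow tabM 8064 12 (revF 1) (muF 1)) = true := by decide +kernel
theorem vm1_1 : allS 11 2048 (chkRow tabM 8064 12 (revF 1) (muF 1)) = true := by decide +kernel
theorem vm1_2 : allS 11 4096 (chkRow tabM 8064 12 (revF 1) (muF 1)) = true := by decide +kernel
theorem vm1_3 : allS 11 6144 (chkRow tabM 8064 12 (revF 1) (muF 1)) = true := by decide +kernel
theorem vm2_0 : allS 11 0 (chkRow tabM 8064 12 (revF 2) (muF 2)) = true := by decide +kernel
theorem vm2_1 : allS 11 2048 (chkRow tabM 8064 12 (revF 2) (muF 2)) = true := by decide +kernel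
theorem vm2_2 : allS 11 4096 (chkRow tabM 8064 12 (revF 2) (muF 2)) = true := by decide +kernel
theorem vm2_3 : allS 11 6144 (chkRow tabM 8064 12 (revF 2) (muF 2)) = true := by decide +kernel
theorem vm3_0 : allS 11 0 (chkRow tabM 8064 12 (revF 3) (muF 3)) = true := by decide +kernel
theorem vm3_1 : allS 11 2048 (chkRow tabM 8064 12 (revF 3) (muF 3)) = true := by decide +kernel
theorem vm3_2 : allS 11 4096 (chkRow tabM 8064 12 (revF 3) (muF 3)) = true := by decide +kernel
theorem vm3_3 : allS 11 6144 (chkRow tabM 8064 12 (revF 3) (muF 3)) = true := by decide +kernel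
theorem vm4_0 : allS 11 0 (chkRow tabM 8064 12 (revF 4) (muF 4)) = true := by decide +kernel
theorem vm4_1 : allS 11 2048 (chkRow tabM 8064 12 (revF 4) (muF 4)) = true := by decide +kernel
theorem vm4_2 : allS 11 4096 (chkRow tabM 8064 12 (revF 4) (muF 4)) = true := by decide +kernel
theorem vm4_3 : allS 11 6144 (chkRow tabM 8064 12 (revF 4) (muF 4)) = true := by decide +kernel
theorem vm6_0 : allS 11 0 (chkRow tabM 8064 12 (revF 6) (muF 6)) = true := by decide +kernel
theorem vm6_1 : allS 11 2048 (chkRow tabM 8064 12 (revF 6) (muF 6)) = true := by decide +kernel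
theorem vm6_2 : allS 11 4096 (chkRow tabM 8064 12 (revF 6) (muF 6)) = true := by decide +kernel
theorem vm6_3 : allS 11 6144 (chkRow tabM 8064 12 (revF 6) (muF 6)) = true := by decide +kernel
theorem vm7_0 : allS 11 0 (chkRow tabM 8064 12 (revF 7) (muF 7)) = true := by decide +kernel
theorem vm7_1 : allS 11 2048 (chkRow tabM 8064 12 (revF 7) (muF 7)) = true := by decide +kernel
theorem vm7_2 : allS 11 4096 (chkRow tabM 8064 12 (revF 7) (muF 7)) = true := by decide +kernel
theorem vm7_3 : allS 11 6144 (chkRow tabM 8064 12 (revF 7) (muF 7)) = true := by decide +kernel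
theorem vm8_0 : allS 11 0 (chkRow tabM 8064 12 (revF 8) (muF 8)) = true := by decide +kernel
theorem vm8_1 : allS 11 2048 (chkRow tabM 8064 12 (revF 8) (muF 8)) = true := by decide +kernel
theorem vm8_2 : allS 11 4096 (chkRow tabM 8064 12 (revF 8) (muF 8)) = true := by decide +kernel
theorem vm8_3 : allS 11 6144 (chkRow tabM 8064 12 (revF 8) (muF 8)) = true := by decide +kernel

end Cfsg.Agent.Lib.Helper10.M22M
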