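import Cfsg.Agent.Lib.Helper10.Mult.M22Defs

set_option autoImplicit false
set_option maxRecDepth 100000

namespace Cfsg.Agent.Lib.Helper10.M22M

open Cfsg.Agent.Lib.Helper10.TCL

theorem vm9_0 : allS 11 0 (chkRow tabM 8064 12 (revF 9) (muF 9)) = true := by decide +kernel
theorem vm9_1 : allS 11 2048 (chkRow tabM 8064 12 (revF 9) (muF 9)) = true := by decide +kernel
theorem vm9_2 : allS 11 4096 (chkRow tabM 8064 12 (revF 9) (muF 9)) = true := by decide +kernel
theorem vm9_3 : allS 11 6144 (chkRow tabM 8064 12 (revF 9) (muF 9)) = true := by decide +kernel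
theorem vm10_0 : allS 11 0 (chkRow tabM 8064 12 (revF 10) (muF 10)) = true := by decide +kernel
theorem vm10_1 : allS 11 2048 (chkRow tabM 8064 12 (revF 10) (muF 10)) = true := by decide +kernel
theorem vm10_2 : allS 11 4096 (chkRow tabM 8064 12 (revF 10) (muF 10)) = true := by decide +kernel
theorem vm10_3 : allS 11 6144 (chkRow tabM 8064 12 (revF 10) (muF 10)) = true := by decide +kernel
theorem vm11_0 : allS 11 0 (chkRow tabM 8064 12 (revF 11) (muF 11)) = true := by decide +kernel
theorem vm11_1 : allS 11 2048 (chkRow tabM 8064 12 (revF 11) (muF 11)) = true := by decide +kernel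
theorem vm11_2 : allS 11 4096 (chkRow tabM 8064 12 (revF 11) (muF 11)) = true := by decide +kernel
theorem vm11_3 : allS 11 6144 (chkRow tabM 8064 12 (revF 11) (muF 11)) = true := by decide +kernel
theorem vm12_0 : allS 11 0 (chkRow tabM 8064 12 (revF 12) (muF 12)) = true := by decide +kernel
theorem vm12_1 : allS 11 2048 (chkRow tabM 8064 12 (revF 12) (muF 12)) = true := by decide +kernel
theorem vm12_2 : allS 11 4096 (chkRow tabM 8064 12 (revF 12) (muF 12)) = true := by decide +kernel
theorem vm12_3 : allS 11 6144 (chkRow tabM 8064 12 (revF 12) (muF 12)) = true := by decide +kernel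
theorem vm13_0 : allS 11 0 (chkRow tabM 8064 12 (revF 13) (muF 13)) = true := by decide +kernel
theorem vm13_1 : allS 11 2048 (chkRow tabM 8064 12 (revF 13) (muF 13)) = true := by decide +kernel
theorem vm13_2 : allS 11 4096 (chkRow tabM 8064 12 (revF 13) (muF 13)) = true := by decide +kernel
theorem vm13_3 : allS 11 6144 (chkRow tabM 8064 12 (revF 13) (muF 13)) = true := by decide +kernel
theorem vm14_0 : allS 11 0 (chkRow tabM 8064 12 (revF 14) (muF 14)) = true := by decide +kernel
theorem vm14_1 : allS 11 2048 (chkRow tabM 8064 12 (revF 14) (muF 14)) = true := by decide +kernel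
theorem vm14_2 : allS 11 4096 (chkRow tabM 8064 12 (revF 14) (muF 14)) = true := by decide +kernel
theorem vm14_3 : allS 11 6144 (chkRow tabM 8064 12 (revF 14) (muF 14)) = true := by decide +kernel
theorem vm15_0 : allS 11 0 (chkRow tabM 8064 12 (revF 15) (muF 15)) = true := by decide +kernel
theorem vm15_1 : allS 11 2048 (chkRow tabM 8064 12 (revF 15) (muF 15)) = true := by decide +kernel
theorem vm15_2 : allS 11 4096 (chkRow tabM 8064 12 (revF 15) (muF 15)) = true := by decide +kernel
theorem vm15_3 : allS 11 6144 (chkRow tabM 8064 12 (revF 15) (muF 15)) = true := by decide +kernel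
theorem vm16_0 : allS 11 0 (chkRow tabM 8064 12 (revF 16) (muF 16)) = true := by decide +kernel
theorem vm16_1 : allS 11 2048 (chkRow tabM 8064 12 (revF 16) (muF 16)) = true := by decide +kernel
theorem vm16_2 : allS 11 4096 (chkRow tabM 8064 12 (revF 16) (muF 16)) = true := by decide +kernel
theorem vm16_3 : allS 11 6144 (chkRow tabM 8064 12 (revF 16) (muF 16)) = true := by decide +kernel

end Cfsg.Agent.Lib.Helper10.M22M
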