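import Cfsg.Agent.Lib.Helper10.Mult.M22Grp
import Cfsg.Agent.Lib.Helper10.Mult.M22VA0
import Cfsg.Agent.Lib.Helper10.Mult.M22VA1
import Cfsg.Agent.Lib.Helper10.Mult.M22VA2
import Cfsg.Agent.Lib.Helper10.Mult.M22VA3
import Cfsg.Agent.Lib.Helper10.Mult.M22VB
import Cfsg.Agent.Lib.Helper10.Mult.M22VC0
import Cfsg.Agent.Lib.Helper10.Mult.M22VC1
import Cfsg.Agent.Lib.Helper10.Mult.M22VC2
import Cfsg.Agent.Lib.Helper41.SchurCore

/-!
The Schur multiplier of the Mathieu group of degree 22 is cyclic of order twelve.
-/

set_option autoImplicit false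
set_option maxRecDepth 100000

namespace Cfsg.Agent.Lib.Helper10.M22M

open Cfsg Cfsg.Spor Cfsg.Agent.Lib.Helper10.TCL Cfsg.Agent.Lib.Helper10.TCS Cfsg.Agent.Lib.Helper94
  Cfsg.Agent.Lib.Helper88 Subgroup

theorem chk_all : ∀ i < 8064 * 6, chkIF tabE tabP relF (rlk 7) subF 8064 6 7 13 8191 8064 i = true := by
  have key : ∀ b < 24, allS 11 (b * 2048) (chkIF tabE tabP relF (rlk 7) subF 8064 6 7 13 8191 8064) = true := by
    intro b hb
    interval_cases b
    · exact va0
    · exact va1
    · exact va2
    · exact va3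
    · exact va4
    · exact va5
    · exact va6
    · exact va7
    · exact va8
    · exact va9
    · exact va10
    · exact va11
    · exact va12
    · exact va13
    · exact va14
    · exact va15
    · exact va16
    · exact va17
    · exact va18
    · exact va19
    · exact va20
    · exact va21
    · exact va22
    · exact va23
  intro i hi
  exact allS_spec 11 _ _ (key (i / 2048) (by omega)) i (by omega) (by norm_num; omega)

theorem inv_all : ∀ i < 8064 * 6, chkInv tabM 8064 12 i = true := by
  have key : ∀ b < 6, allS 13 (b * 8192) (chkInv tabM 8064 12) = true := by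
    intro b hb
    interval_cases b
    · exact vinv0
    · exact vinv1
    · exact vinv2
    · exact vinv3
    · exact vinv4
    · exact vinv5
  intro i hi
  exact allS_spec 13 _ _ (key (i / 8192) (by omega)) i (by omega) (by norm_num; omega)

theorem row_all : ∀ i < 17, ∀ b < 4, allS 11 (b * 2048) (chkRow tabM 8064 12 (revF i) (muF i)) = true := by
  intro i hi
  interval_cases i
  · intro b hb
    interval_cases b
    · exact vm0_0
    · exact vm0_1
    · exact vm0_2
    · exact vm0_3
  · intro b hb
    interval_cases b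
    · exact vm1_0
    · exact vm1_1
    · exact vm1_2
    · exact vm1_3
  · intro b hb
    interval_cases b
    · exact vm2_0
    · exact vm2_1
    · exact vm2_2
    · exact vm2_3
  · intro b hb
    interval_cases b
    · exact vm3_0
    · exact vm3_1
    · exact vm3_2
    · exact vm3_3
  · intro b hb
    interval_cases b
    · exact vm4_0
    · exact vm4_1
    · exact vm4_2
    · exact vm4_3
  · intro b hb
    interval_cases b
    · exact vm5_0
    · exact vm5_1
    · exact vm5_2
    · exact vm5_3
  · intro b hb
    interval_cases b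
    · exact vm6_0
    · exact vm6_1
    · exact vm6_2
    · exact vm6_3
  · intro b hb
    interval_cases b
    · exact vm7_0
    · exact vm7_1
    · exact vm7_2
    · exact vm7_3
  · intro b hb
    interval_cases b
    · exact vm8_0
    · exact vm8_1
    · exact vm8_2
    · exact vm8_3
  · intro b hb
    interval_cases b
    · exact vm9_0
    · exact vm9_1
    · exact vm9_2
    · exact vm9_3
  · intro b hb
    interval_cases b
    · exact vm10_0
    · exact vm10_1
    · exact vm10_2
    · exact vm10_3
  · intro b hb
    interval_cases b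
    · exact vm11_0
    · exact vm11_1
    · exact vm11_2
    · exact vm11_3
  · intro b hb
    interval_cases b
    · exact vm12_0
    · exact vm12_1
    · exact vm12_2
    · exact vm12_3
  · intro b hb
    interval_cases b
    · exact vm13_0
    · exact vm13_1
    · exact vm13_2
    · exact vm13_3
  · intro b hb
    interval_cases b
    · exact vm14_0
    · exact vm14_1
    · exact vm14_2
    · exact vm14_3
  · intro b hb
    interval_cases b
    · exact vm15_0
    · exact vm15_1
    · exact vm15_2
    · exact vm15_3
  · intro b hb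
    interval_cases b
    · exact vm16_0
    · exact vm16_1
    · exact vm16_2
    · exact vm16_3

theorem cert_ok : cert.OK where
  chk := chkE_of_chkIF tabE tabP relF (rlk 7) subF 8064 6 7 13 8191 8064 chk_all
  cl := by
    intro q hq
    have := (List.all_eq_true.1 vcl) q hq
    rw [chkClF_eq] at this
    exact this
  var := by
    intro j hj
    exact (List.all_eq_true.1 vvar) j (List.mem_range.2 hj)
  ho1 := vo1
  ho2 := vo2
  p1 := by norm_num [cert]
  p2 := by norm_num [cert]
  hR := by norm_num [cert]

def R1 : List ℕ := [5, 0, 0, 5, 1, 5, 2, 1, 5, 2, 1, 5, 3, 3, 1, 1, 1, 1, 1]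

theorem normW : ∀ i, 7 ≤ i → relF i ∈ normList 11 5 3 R1 := by
  intro i hi
  by_cases h : i < 17
  · interval_cases i <;> decide
  · have : relF i = [] := List.getD_eq_default _ _ (by simp [relL]; omega)
    rw [this]
    decide

theorem normE : ∀ r ∈ normList 11 5 3 R1, ∃ i, 7 ≤ i ∧ relF i = r := by
  intro r hr
  simp only [normList, List.mem_cons, List.not_mem_nil, or_false] at hr
  rcases hr with rfl | rfl | rfl | rfl | rfl | rfl | rfl | rfl | rfl | rfl | rfl
  · exact ⟨7, by norm_num, rfl⟩
  · exact ⟨8, by norm_num, rfl⟩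
  · exact ⟨9, by norm_num, rfl⟩
  · exact ⟨10, by norm_num, rfl⟩
  · exact ⟨11, by norm_num, rfl⟩
  · exact ⟨12, by norm_num, rfl⟩
  · exact ⟨13, by norm_num, rfl⟩
  · exact ⟨14, by norm_num, rfl⟩
  · exact ⟨15, by norm_num, rfl⟩
  · exact ⟨16, by norm_num, rfl⟩
  · exact ⟨17, by norm_num, rfl⟩

theorem normG : ∀ r ∈ normList 11 5 3 R1, wv (lv gu gv gw) r = 1 := by
  intro r hr
  obtain ⟨i, _, rfl⟩ := normE r hr
  exact relG i

theorem ord_u : orderOf gu = 11 := by
  have : Fact (Nat.Prime 11) := ⟨by norm_num⟩
  exact orderOf_eq_prime (vals_of_norm gu gv gw 11 5 3 R1 normG).1 gu_ne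

theorem ord_v : orderOf gv = 5 := by
  have : Fact (Nat.Prime 5) := ⟨by norm_num⟩
  exact orderOf_eq_prime (vals_of_norm gu gv gw 11 5 3 R1 normG).2.1 gv_ne

theorem hMtab : ∀ v < 8064, ∀ c < 6, mT tabM v c < 8064 ∧ mT tabM (mT tabM v c) (inv6 c) = v ∧
    (mL tabM v c + mL tabM (mT tabM v c) (inv6 c)) % 12 = 0 := hM_of_chk tabM 8064 12 inv_all

theorem rel_rev : ∀ i, relF i = (revF i).reverse := by
  intro i
  by_cases h : i < 17
  · interval_cases i <;> rfl
  · have e1 : relF i = [] := List.getD_eq_default _ _ (by simp [relL]; omega)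
    have e2 : revF i = [] := List.getD_eq_default _ _ (by simp [revL]; omega)
    rw [e1, e2]; rfl

theorem relM : ∀ i, wv (pim tabM 8064 12 hMtab) (relF i) = trp 8064 12 (muF i : ZMod 12) := by
  intro i
  rw [rel_rev]
  by_cases h : i < 17
  · apply rel_val
    apply chkW_of_row tabM 8064 12
    intro v hv
    exact allS_spec 11 _ _ (row_all i h (v / 2048) (by omega)) v (by omega) (by norm_num; omega)
  · have e2 : revF i = [] := List.getD_eq_default _ _ (by simp [revL]; omega)
    have e3 : muF i = 0 := List.getD_eq_default _ _ (by simp [muL]; omega)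
    rw [e2, e3, Nat.cast_zero, trp_zero]
    rfl

theorem mu_zero : ∀ i, 7 ≤ i → muF i = 0 := by
  intro i hi
  by_cases h : i < 17
  · interval_cases i <;> rfl
  · exact List.getD_eq_default _ _ (by simp [muL]; omega)

theorem multiplier_GM : HasCyclicSchurMultiplier GM 12 := by
  obtain ⟨hfin, σ0, hst, ⟨e⟩⟩ := model_stem tabM 8064 12 hMtab gu gv gw cert cert_ok rfl
    (fun c hc => by
      have : Nat.blt c 4 = true := hc
      rwa [Nat.blt_eq] at this) rfl rfl rfl (by norm_num) 11 5 3 ord_u ord_v (by norm_num) (by norm_num)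
    (by norm_num) gen_top relG card_GM R1 normE muF mu_zero relM rfl 5 [0, 4, 0] [5] (by decide) (by decide) rfl
  apply Cfsg.Agent.Lib.Helper41.hasSchurMultiplier_of_card_le _ σ0 hst e
  intro Γ _ _ σ hσ
  have hc : Nat.card (Multiplicative (ZMod 12)) = 12 := by simp
  rw [hc]
  exact stem_bound σ hσ cert cert_ok rfl
    (fun c hc => by
      have : Nat.blt c 4 = true := hc
      rwa [Nat.blt_eq] at this) (by norm_num [cert]) gu gv gw 11 5 3 ord_u ord_v (by norm_num) (by norm_num)
    (by norm_num) (vals_of_norm gu gv gw 11 5 3 R1 normG).2.2 gen_top relG card_GM (by norm_num [cert])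
    (by norm_num [cert]) R1 (normG R1 (by simp [normList])) 1613 (by decide) normW

theorem multiplier_M22 : HasCyclicSchurMultiplier ↥Cfsg.Spor.M22 12 := by
  rw [M22_eq]
  exact multiplier_GM

end Cfsg.Agent.Lib.Helper10.M22M
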