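import Cfsg.Agent.Lib.Helper10.Mult.Fast

/-!
A central extension built from a coset table with labels in a cyclic group.
-/

set_option autoImplicit false

namespace Cfsg.Agent.Lib.Helper10.TCL

open Cfsg Cfsg.Agent.Lib.Helper10.TCS Subgroup

theorem inv6_inv6 : ∀ c < 6, inv6 c < 6 ∧ inv6 (inv6 c) = c := by
  intro c hc
  interval_cases c <;> simp [inv6]

def invW (w : List ℕ) : List ℕ := (w.map inv6).reverse

section tab
variable (Mt : ℕ → ℕ) (R o : ℕ)

def mT (v c : ℕ) : ℕ := Nat.land (Mt (Nat.add (Nat.mul v 6) c)) 131071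
def mL (v c : ℕ) : ℕ := Nat.shiftRight (Mt (Nat.add (Nat.mul v 6) c)) 17

/-- the check that the columns of inverse letters are inverse to each other. -/
noncomputable def chkInv (i : ℕ) : Bool :=
  Nat.ble (Nat.mul R 6) i || strict (Nat.div i 6) fun v => strict (Nat.mod i 6) fun c =>
    strict (mT Mt v c) fun t =>
    Nat.blt t R && (Nat.beq (mT Mt t (inv6 c)) v && Nat.beq (Nat.mod (Nat.add (mL Mt v c) (mL Mt t (inv6 c))) o) 0)

/-- the action of a reversed word. -/
noncomputable def chkW : List ℕ → ℕ → ℕ → ℕ → ℕ → Bool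
  | [], v, s, v0, t => Nat.beq v v0 && Nat.beq (Nat.mod s o) t
  | c :: wr, v, s, v0, t => strict (Mt (Nat.add (Nat.mul v 6) c)) fun e =>
      Nat.blt c 6 && chkW wr (Nat.land e 131071) (Nat.add s (Nat.shiftRight e 17)) v0 t

noncomputable def chkRow (wr : List ℕ) (t : ℕ) (v : ℕ) : Bool := Nat.ble R v || chkW Mt o wr v 0 v t

def stepf (c : ℕ) (p : ℕ × ZMod o) : ℕ × ZMod o :=
  if p.1 < R then (mT Mt p.1 c, p.2 + (mL Mt p.1 c : ZMod o)) else p

variable (hM : ∀ v < R, ∀ c < 6, mT Mt v c < R ∧ mT Mt (mT Mt v c) (inv6 c) = v ∧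
  (mL Mt v c + mL Mt (mT Mt v c) (inv6 c)) % o = 0)
include hM

theorem stepf_inv (c : ℕ) (hc : c < 6) (p : ℕ × ZMod o) : stepf Mt R o (inv6 c) (stepf Mt R o c p) = p := by
  obtain ⟨v, z⟩ := p
  unfold stepf
  by_cases hv : v < R
  · obtain ⟨h1, h2, h3⟩ := hM v hv c hc
    simp only [if_pos hv, if_pos h1, h2]
    have : ((mL Mt v c + mL Mt (mT Mt v c) (inv6 c) : ℕ) : ZMod o) = 0 := by
      rw [ZMod.natCast_eq_zero_iff]
      exact Nat.dvd_of_mod_eq_zero h3
    rw [Nat.cast_add] at this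
    rw [add_assoc, this, add_zero]
  · simp only [if_neg hv]

/-- the permutation of a letter. -/
def pim (c : ℕ) : Equiv.Perm (ℕ × ZMod o) :=
  if hc : c < 6 then
    { toFun := stepf Mt R o c
      invFun := stepf Mt R o (inv6 c)
      left_inv := stepf_inv Mt R o hM c hc
      right_inv := fun p => by
        have := stepf_inv Mt R o hM (inv6 c) (inv6_inv6 c hc).1 p
        rwa [(inv6_inv6 c hc).2] at this }
  else 1

theorem pim_apply (c : ℕ) (hc : c < 6) (p : ℕ × ZMod o) : pim Mt R o hM c p = stepf Mt R o c p := by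
  unfold pim
  rw [dif_pos hc]
  rfl

theorem pim_inv (c : ℕ) (hc : c < 6) : pim Mt R o hM (inv6 c) = (pim Mt R o hM c)⁻¹ := by
  apply eq_inv_of_mul_eq_one_left
  ext p : 1
  rw [Equiv.Perm.mul_apply, pim_apply _ _ _ _ _ hc, pim_apply _ _ _ _ _ (inv6_inv6 c hc).1, stepf_inv Mt R o hM c hc]
  rfl

omit hM in
theorem stepf_ge (c : ℕ) (p : ℕ × ZMod o) (hp : ¬ p.1 < R) : stepf Mt R o c p = p := by
  unfold stepf
  rw [if_neg hp]

theorem pim_ge (c : ℕ) (p : ℕ × ZMod o) (hp : ¬ p.1 < R) : pim Mt R o hM c p = p := by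
  by_cases hc : c < 6
  · rw [pim_apply _ _ _ _ _ hc, stepf_ge _ _ _ _ _ hp]
  · unfold pim
    rw [dif_neg hc]; rfl

theorem wv_pim_ge (p : ℕ × ZMod o) (hp : ¬ p.1 < R) : ∀ w : List ℕ, wv (pim Mt R o hM) w p = p
  | [] => rfl
  | c :: w => by
    rw [wv_cons, Equiv.Perm.mul_apply, wv_pim_ge p hp w, pim_ge _ _ _ _ _ _ hp]

omit hM in
/-- translations. -/
def trf (m : ZMod o) (p : ℕ × ZMod o) : ℕ × ZMod o := if p.1 < R then (p.1, p.2 + m) else p

omit hM in
theorem trf_trf (m m' : ZMod o) (p : ℕ × ZMod o) : trf R o m (trf R o m' p) = trf R o (m + m') p := by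
  obtain ⟨v, z⟩ := p
  unfold trf
  by_cases hv : v < R
  · simp only [if_pos hv]
    rw [add_assoc, add_comm m' m]
  · simp only [if_neg hv]

omit hM in
theorem trf_zero (p : ℕ × ZMod o) : trf R o 0 p = p := by
  obtain ⟨v, z⟩ := p
  unfold trf
  split_ifs <;> simp

omit hM in
def trp (m : ZMod o) : Equiv.Perm (ℕ × ZMod o) where
  toFun := trf R o m
  invFun := trf R o (-m)
  left_inv := fun p => by rw [trf_trf, neg_add_cancel, trf_zero]
  right_inv := fun p => by rw [trf_trf, add_neg_cancel, trf_zero]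

omit hM in
def trHom : Multiplicative (ZMod o) →* Equiv.Perm (ℕ × ZMod o) where
  toFun m := trp R o (Multiplicative.toAdd m)
  map_one' := by
    ext p : 1
    exact trf_zero R o p
  map_mul' := fun a b => by
    ext p : 1
    exact (trf_trf R o _ _ p).symm

theorem trp_comm (m : ZMod o) (c : ℕ) : trp R o m * pim Mt R o hM c = pim Mt R o hM c * trp R o m := by
  ext p : 1
  rw [Equiv.Perm.mul_apply, Equiv.Perm.mul_apply]
  obtain ⟨v, z⟩ := p
  by_cases hc : c < 6
  · rw [pim_apply _ _ _ _ _ hc, pim_apply _ _ _ _ _ hc]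
    show trf R o m (stepf Mt R o c (v, z)) = stepf Mt R o c (trf R o m (v, z))
    unfold trf stepf
    by_cases hv : v < R
    · simp only [if_pos hv, if_pos (hM v hv c hc).1]
      rw [add_right_comm]
    · simp only [if_neg hv]
  · unfold pim
    rw [dif_neg hc]; rfl

theorem chkW_sound : ∀ (wr : List ℕ) (v s v0 t : ℕ), v < R → chkW Mt o wr v s v0 t = true → ∀ z : ZMod o,
    wv (pim Mt R o hM) wr.reverse (v, (s : ZMod o) + z) = (v0, (t : ZMod o) + z)
  | [], v, s, v0, t, _, h, z => by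
    rw [chkW, Bool.and_eq_true] at h
    have h1 : v = v0 := Nat.eq_of_beq_eq_true h.1
    have h2 : s % o = t := Nat.eq_of_beq_eq_true h.2
    rw [← h2, ZMod.natCast_mod, h1]
    rfl
  | c :: wr, v, s, v0, t, hv, h, z => by
    rw [chkW, strict_eq, Bool.and_eq_true, Nat.blt_eq] at h
    have ih := chkW_sound wr (mT Mt v c) (s + mL Mt v c) v0 t (hM v hv c h.1).1 h.2 z
    rw [List.reverse_cons, wv_append, wv_cons, wv_nil, mul_one, Equiv.Perm.mul_apply, pim_apply _ _ _ _ _ h.1, ← ih]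
    congr 1
    unfold stepf
    simp only [if_pos hv]
    rw [Nat.cast_add, add_right_comm]

theorem rel_val (wr : List ℕ) (t : ℕ) (h : ∀ v < R, chkW Mt o wr v 0 v t = true) :
    wv (pim Mt R o hM) wr.reverse = trp R o (t : ZMod o) := by
  ext p : 1
  obtain ⟨v, z⟩ := p
  show _ = trf R o t (v, z)
  by_cases hv : v < R
  · have := chkW_sound Mt R o hM wr v 0 v t hv (h v hv) z
    rw [Nat.cast_zero, zero_add] at this
    rw [this]
    unfold trf
    simp only [if_pos hv]
    rw [add_comm]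
  · rw [wv_pim_ge Mt R o hM (v, z) hv]
    unfold trf
    simp only [if_neg hv]

end tab

end Cfsg.Agent.Lib.Helper10.TCL
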