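import Cfsg.Agent.Lib.Helper10.Mult.Model

/-!
The central extension built from a labelled coset table is a stem extension with cyclic kernel.
-/

set_option autoImplicit false

namespace Cfsg.Agent.Lib.Helper10.TCL

open Cfsg Cfsg.Agent.Lib.Helper10.TCS Subgroup
open scoped commutatorElement

theorem wv_invW {α : Type*} [Group α] (x y z : α) : ∀ w : List ℕ, (∀ c ∈ w, c < 6) →
    wv (lv x y z) (invW w) = (wv (lv x y z) w)⁻¹
  | [], _ => by simp [invW, wv]
  | c :: w, h => by
    have ih := wv_invW x y z w (fun d hd => h d (List.mem_cons_of_mem _ hd))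
    unfold invW at ih ⊢
    rw [List.map_cons, List.reverse_cons, wv_append, ih, wv_cons, wv_cons, wv_nil, mul_one,
      (lv_inv6 x y z c (h c List.mem_cons_self)).2, mul_inv_rev]

theorem wv_comm_mem {α : Type*} [Group α] (x y z : α) (a b : List ℕ) (ha : ∀ c ∈ a, c < 6) (hb : ∀ c ∈ b, c < 6) :
    ∀ n : ℕ, wv (lv x y z) (List.replicate n (a ++ b ++ invW a ++ invW b)).flatten ∈ commutator α
  | 0 => by simp [wv]
  | n + 1 => by
    rw [List.replicate_succ, List.flatten_cons, wv_append]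
    refine mul_mem ?_ (wv_comm_mem x y z a b ha hb n)
    rw [wv_append, wv_append, wv_append, wv_invW x y z a ha, wv_invW x y z b hb, ← commutatorElement_def]
    exact commutator_mem_commutator (mem_top _) (mem_top _)

section
variable (Mt : ℕ → ℕ) (R o : ℕ)
variable (hM : ∀ v < R, ∀ c < 6, mT Mt v c < R ∧ mT Mt (mT Mt v c) (inv6 c) = v ∧
  (mL Mt v c + mL Mt (mT Mt v c) (inv6 c)) % o = 0)
variable {G : Type*} [Group G] (u v w : G)

def aval (c : ℕ) : Equiv.Perm (ℕ × ZMod o) × G := (pim Mt R o hM c, lv u v w c)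

def Gam : Subgroup (Equiv.Perm (ℕ × ZMod o) × G) := closure {x | ∃ c < 6, x = aval Mt R o hM u v w c}

theorem aval_mem (c : ℕ) (hc : c < 6) : aval Mt R o hM u v w c ∈ Gam Mt R o hM u v w :=
  subset_closure ⟨c, hc, rfl⟩

theorem aval_inv (c : ℕ) (hc : c < 6) : aval Mt R o hM u v w (inv6 c) = (aval Mt R o hM u v w c)⁻¹ := by
  unfold aval
  rw [pim_inv Mt R o hM c hc, (lv_inv6 u v w c hc).2]
  rfl

theorem aval_ge (c : ℕ) (hc : ¬ c < 6) : aval Mt R o hM u v w c = 1 := by
  unfold aval pim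
  rw [dif_neg hc]
  have : lv u v w c = 1 := by
    unfold lv
    rw [if_neg (by omega), if_neg (by omega), if_neg (by omega), if_neg (by omega), if_neg (by omega),
      if_neg (by omega)]
  rw [this]; rfl

/-- translations are central. -/
theorem tr_central (m : ZMod o) : ∀ g ∈ Gam Mt R o hM u v w,
    ((trp R o m, 1) : Equiv.Perm (ℕ × ZMod o) × G) * g = g * (trp R o m, 1) := by
  have : Gam Mt R o hM u v w ≤ centralizer {((trp R o m, 1) : Equiv.Perm (ℕ × ZMod o) × G)} := by
    unfold Gam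
    rw [closure_le]
    rintro _ ⟨c, _, rfl⟩
    rw [SetLike.mem_coe, mem_centralizer_iff]
    intro h hh
    rw [Set.mem_singleton_iff] at hh
    subst hh
    unfold aval
    rw [Prod.mk_mul_mk, Prod.mk_mul_mk, trp_comm, one_mul, mul_one]
  intro g hg
  exact (mem_centralizer_iff.1 (this hg)) _ rfl

theorem trp_zero : trp R o 0 = 1 := by
  ext p : 1
  exact trf_zero R o p

theorem trp_pow (m : ZMod o) (n : ℕ) : trp R o m ^ n = trp R o (n * m) := by
  have h : ∀ x : ZMod o, trp R o x = trHom R o (Multiplicative.ofAdd x) := fun _ => rfl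
  rw [h, h, ← map_pow, ← ofAdd_nsmul, nsmul_eq_mul]

theorem model_stem [NeZero o] (D : Cert) (hD : D.OK) (hC : D.C = 6) (hsubD : ∀ c, D.isSub c = true → c < 4)
    (hDR : D.R = R) (ho1 : D.o1 = o) (ho2 : D.o2 = 1) (hoR : o ∣ R)
    (p q m : ℕ) (hu : orderOf u = p) (hv : orderOf v = q) (hp : 0 < p) (hq : 0 < q) (hpq : Nat.Coprime p q)
    (hgen : closure ({u, v, w} : Set G) = ⊤) (hrelG : ∀ i, wv (lv u v w) (D.rel i) = 1)
    (hcard : Nat.card G = R * (p * q))
    (R1 : List ℕ) (hnormE : ∀ r ∈ normList p q m R1, ∃ i, D.k ≤ i ∧ D.rel i = r)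
    (mu : ℕ → ℕ) (hmu0 : ∀ i, D.k ≤ i → mu i = 0)
    (hrelM : ∀ i, wv (pim Mt R o hM) (D.rel i) = trp R o (mu i : ZMod o))
    (hj0 : mu D.j0 = 1)
    (n0 : ℕ) (a0 b0 : List ℕ) (ha0 : ∀ c ∈ a0, c < 6) (hb0 : ∀ c ∈ b0, c < 6)
    (hcomm : D.rel D.j0 = (List.replicate n0 (a0 ++ b0 ++ invW a0 ++ invW b0)).flatten) :
    ∃ (_ : Finite (Gam Mt R o hM u v w)) (σ : Gam Mt R o hM u v w →* G), IsStemExtension σ ∧
      Nonempty (σ.ker ≃* Multiplicative (ZMod o)) := by
  have hRpos : 0 < R := hDR ▸ hD.hR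
  obtain ⟨a, ha'⟩ : ∃ a : Gam Mt R o hM u v w, a = ⟨_, aval_mem Mt R o hM u v w 0 (by norm_num)⟩ := ⟨_, rfl⟩
  obtain ⟨b, hb'⟩ : ∃ a : Gam Mt R o hM u v w, a = ⟨_, aval_mem Mt R o hM u v w 2 (by norm_num)⟩ := ⟨_, rfl⟩
  obtain ⟨c, hc'⟩ : ∃ a : Gam Mt R o hM u v w, a = ⟨_, aval_mem Mt R o hM u v w 4 (by norm_num)⟩ := ⟨_, rfl⟩
  have hcoe : ∀ d, ((lv a b c d : Gam Mt R o hM u v w) : Equiv.Perm (ℕ × ZMod o) × G) = aval Mt R o hM u v w d := by
    intro d
    by_cases hd : d < 6
    · interval_cases d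
      · simp [lv, ha']
      · have := aval_inv Mt R o hM u v w 0 (by norm_num)
        have e : inv6 0 = 1 := rfl
        rw [e] at this
        rw [this]; simp [lv, ha']
      · simp [lv, hb']
      · have := aval_inv Mt R o hM u v w 2 (by norm_num)
        have e : inv6 2 = 3 := rfl
        rw [e] at this
        rw [this]; simp [lv, hb']
      · simp [lv, hc']
      · have := aval_inv Mt R o hM u v w 4 (by norm_num)
        have e : inv6 4 = 5 := rfl
        rw [e] at this
        rw [this]; simp [lv, hc']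
    · rw [aval_ge Mt R o hM u v w d hd]
      have : lv a b c d = 1 := by
        unfold lv
        rw [if_neg (by omega), if_neg (by omega), if_neg (by omega), if_neg (by omega), if_neg (by omega),
          if_neg (by omega)]
      rw [this]; rfl
  let σ0 : Gam Mt R o hM u v w →* G := (MonoidHom.snd _ _).comp (Gam Mt R o hM u v w).subtype
  have hwv : ∀ r, ((wv (lv a b c) r : Gam Mt R o hM u v w) : Equiv.Perm (ℕ × ZMod o) × G) =
      (wv (pim Mt R o hM) r, wv (lv u v w) r) := by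
    intro r
    have h1 : (Gam Mt R o hM u v w).subtype (wv (lv a b c) r) = wv (aval Mt R o hM u v w) r := by
      rw [map_wv]; congr 1; funext d; exact hcoe d
    have h2 := map_wv (MonoidHom.fst (Equiv.Perm (ℕ × ZMod o)) G) (aval Mt R o hM u v w) r
    have h3 := map_wv (MonoidHom.snd (Equiv.Perm (ℕ × ZMod o)) G) (aval Mt R o hM u v w) r
    show (Gam Mt R o hM u v w).subtype (wv (lv a b c) r) = _
    rw [h1]
    exact Prod.ext h2 h3
  have hval : ∀ i, ((wv (lv a b c) (D.rel i) : Gam Mt R o hM u v w) : Equiv.Perm (ℕ × ZMod o) × G) =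
      (trp R o (mu i : ZMod o), 1) := by
    intro i; rw [hwv, hrelM, hrelG]
  have hcenX : ∀ (x : Gam Mt R o hM u v w) (t : ZMod o),
      (x : Equiv.Perm (ℕ × ZMod o) × G) = (trp R o t, 1) → ∀ g, x * g = g * x := by
    intro x t hx g
    apply Subtype.ext
    show (x : Equiv.Perm (ℕ × ZMod o) × G) * g.1 = g.1 * x.1
    rw [hx]
    exact tr_central Mt R o hM u v w t g.1 g.2
  have hnorm : ∀ i, D.k ≤ i → wv (lv a b c) (D.rel i) = 1 := by
    intro i hi
    apply Subtype.ext
    rw [hval, hmu0 i hi, Nat.cast_zero, trp_zero]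
    rfl
  have hnl : ∀ r ∈ normList p q m R1, wv (lv a b c) r = 1 := by
    intro r hr
    obtain ⟨i, hi, rfl⟩ := hnormE r hr
    exact hnorm i hi
  obtain ⟨ha, hb, hab⟩ := vals_of_norm a b c p q m R1 hnl
  have sa : σ0 a = u := by rw [ha']; rfl
  have sb : σ0 b = v := by rw [hb']; rfl
  have sc : σ0 c = w := by rw [hc']; rfl
  obtain ⟨k1, k2, k3⟩ := frob_K σ0 a b p q m ha hb hab hp hq (by rw [sa, hu]) (by rw [sb, hv]) hpq
  have hker : ∀ i, σ0 (wv (lv a b c) (D.rel i)) = 1 := by
    intro i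
    show ((wv (lv a b c) (D.rel i) : Gam Mt R o hM u v w) : Equiv.Perm (ℕ × ZMod o) × G).2 = 1
    rw [hval]
  have hbd := bound_of_vals D hD (lv a b c) (closure ({a, b} : Set (Gam Mt R o hM u v w)))
    (fun j _ g => hcenX _ _ (hval j) g)
    (fun j _ => by
      apply Subtype.ext
      show ((wv (lv a b c) (D.rel j) : Gam Mt R o hM u v w) : Equiv.Perm (ℕ × ZMod o) × G) ^ D.R = 1
      rw [hval, Prod.pow_mk, trp_pow, one_pow, hDR, (ZMod.natCast_eq_zero_iff R o).2 hoR, zero_mul, trp_zero]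
      rfl)
    hnorm
    (by
      intro d hd
      have := hsubD d hd
      have hA : a ∈ closure ({a, b} : Set (Gam Mt R o hM u v w)) := subset_closure (by simp)
      have hB : b ∈ closure ({a, b} : Set (Gam Mt R o hM u v w)) := subset_closure (by simp)
      interval_cases d
      · simpa [lv] using hA
      · simpa [lv] using hA
      · simpa [lv] using hB
      · simpa [lv] using hB)
    inv6 (by rw [hC]; exact lv_inv6 a b c) σ0.ker (fun j _ => MonoidHom.mem_ker.2 (hker j))
    (fun x hx hx' => k3 x hx (MonoidHom.mem_ker.1 hx'))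
  rw [hC] at hbd
  have htop : closure {x : Gam Mt R o hM u v w | ∃ d < 6, x = lv a b c d} = ⊤ := by
    rw [eq_top_iff]
    have key : ∀ y (hy : y ∈ closure {x | ∃ c < 6, x = aval Mt R o hM u v w c}),
        (⟨y, hy⟩ : Gam Mt R o hM u v w) ∈ closure {x : Gam Mt R o hM u v w | ∃ d < 6, x = lv a b c d} := by
      intro y hy
      induction hy using closure_induction with
      | mem y hy =>
        obtain ⟨d, hd, rfl⟩ := hy
        exact subset_closure ⟨d, hd, Subtype.ext (hcoe d).symm⟩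
      | one => exact one_mem _
      | mul x y hx hy ihx ihy => exact mul_mem ihx ihy
      | inv x hx ih => exact inv_mem ih
    intro x _
    exact key x.1 x.2
  rw [htop] at hbd
  have hfin : Finite (Gam Mt R o hM u v w) := by
    have := hbd.1
    exact Finite.of_equiv _ (Subgroup.topEquiv (G := Gam Mt R o hM u v w)).toEquiv
  have hsurj : Function.Surjective σ0 := by
    rw [← MonoidHom.range_eq_top, eq_top_iff, ← hgen, closure_le]
    rintro y (rfl | rfl | rfl)
    · exact ⟨a, sa⟩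
    · exact ⟨b, sb⟩
    · exact ⟨c, sc⟩
  have hkcard : Nat.card σ0.ker ≤ o := by
    have h1 := Subgroup.card_mul_index σ0.ker
    rw [Subgroup.index_ker, MonoidHom.range_eq_top.2 hsurj, Subgroup.card_top, hcard] at h1
    have h2 := hbd.2
    rw [Subgroup.card_top, ← h1, hDR, ho1, ho2, mul_one] at h2
    have h3 : Nat.card σ0.ker * (R * (p * q)) ≤ o * (R * (p * q)) := by
      calc Nat.card σ0.ker * (R * (p * q)) ≤ R * (Nat.card (closure ({a, b} : Set (Gam Mt R o hM u v w))) * o) := h2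
        _ ≤ R * ((p * q) * o) := Nat.mul_le_mul_left _ (Nat.mul_le_mul_right _ k2)
        _ = _ := by ring
    exact Nat.le_of_mul_le_mul_right h3 (Nat.mul_pos hRpos (Nat.mul_pos hp hq))
  -- the translations
  obtain ⟨g, hg⟩ : ∃ g, g = wv (lv a b c) (D.rel D.j0) := ⟨_, rfl⟩
  have hgv : (g : Equiv.Perm (ℕ × ZMod o) × G) = (trp R o 1, 1) := by
    rw [hg, hval, hj0, Nat.cast_one]
  have hgc : g ∈ commutator (Gam Mt R o hM u v w) := by
    rw [hg, hcomm]
    exact wv_comm_mem a b c a0 b0 ha0 hb0 n0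
  let T0 : Multiplicative (ZMod o) →* Equiv.Perm (ℕ × ZMod o) × G := (trHom R o).prod 1
  have hT0 : ∀ x, T0 x = (g : Equiv.Perm (ℕ × ZMod o) × G) ^ (Multiplicative.toAdd x).val := by
    intro x
    rw [hgv, Prod.pow_mk, trp_pow, one_pow, mul_one, ZMod.natCast_zmod_val]
    rfl
  have hmem : ∀ x, T0 x ∈ Gam Mt R o hM u v w := by
    intro x
    rw [hT0]
    exact pow_mem g.2 _
  let Θ1 : Multiplicative (ZMod o) →* Gam Mt R o hM u v w := T0.codRestrict _ hmem
  have hΘ1 : ∀ x, Θ1 x = g ^ (Multiplicative.toAdd x).val := by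
    intro x
    apply Subtype.ext
    exact hT0 x
  let Θ2 : Multiplicative (ZMod o) →* σ0.ker := Θ1.codRestrict _ (fun x => MonoidHom.mem_ker.2 rfl)
  have hinj : Function.Injective Θ2 := by
    intro x y hxy
    have h1 : T0 x = T0 y := congrArg (fun z : σ0.ker => ((z : Gam Mt R o hM u v w) : Equiv.Perm (ℕ × ZMod o) × G)) hxy
    have h2 : trp R o (Multiplicative.toAdd x) = trp R o (Multiplicative.toAdd y) := congrArg Prod.fst h1
    have h3 : trf R o (Multiplicative.toAdd x) (0, 0) = trf R o (Multiplicative.toAdd y) (0, 0) :=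
      congrArg (fun f : Equiv.Perm (ℕ × ZMod o) => f (0, 0)) h2
    unfold trf at h3
    simp only [if_pos hRpos, zero_add, Prod.mk.injEq, true_and] at h3
    exact Multiplicative.toAdd.injective h3
  have hcardM : Nat.card (Multiplicative (ZMod o)) = o :=
    (Nat.card_congr Multiplicative.toAdd).trans (Nat.card_zmod o)
  have hbij : Function.Bijective Θ2 :=
    hinj.bijective_of_nat_card_le (by rw [hcardM]; exact hkcard)
  refine ⟨hfin, σ0, ⟨hsurj, ?_, ?_⟩, ⟨(MulEquiv.ofBijective Θ2 hbij).symm⟩⟩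
  · intro z hz
    obtain ⟨x, hx⟩ := hbij.2 ⟨z, hz⟩
    have e : z = Θ1 x := congrArg (fun t : σ0.ker => (t : Gam Mt R o hM u v w)) hx.symm
    rw [mem_center_iff]
    intro y
    exact (hcenX z (Multiplicative.toAdd x) (by rw [e]; rfl) y).symm
  · intro z hz
    obtain ⟨x, hx⟩ := hbij.2 ⟨z, hz⟩
    have e : z = Θ1 x := congrArg (fun t : σ0.ker => (t : Gam Mt R o hM u v w)) hx.symm
    rw [e, hΘ1]
    exact pow_mem hgc _

end

end Cfsg.Agent.Lib.Helper10.TCL
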