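import Cfsg.Agent.Lib.Helper10.Mult.Frob
import Cfsg.Agent.Lib.Helper9.SchurOdd

/-!
The bound for the kernel of a stem extension from a labelled coset table.
-/

set_option autoImplicit false

namespace Cfsg.Agent.Lib.Helper10.TCL

open Cfsg Cfsg.Agent.Lib.Helper10.TCS Cfsg.Agent.Lib.Helper9 Subgroup

/-- the data of a certificate. -/
structure Cert where
  E : ℕ → ℕ
  P : ℕ → ℕ
  rel : ℕ → List ℕ
  isSub : ℕ → Bool
  R : ℕ
  C : ℕ
  k : ℕ
  wd : ℕ
  mask : ℕ
  cl : List (ℕ × ℕ × List ℕ)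
  j0 : ℕ
  j1 : ℕ
  o1 : ℕ
  o2 : ℕ
  m1 : ℕ → ℕ
  m2 : ℕ → ℕ
  lam : ℕ → List ℕ
  l1 : List ℕ
  l2 : List ℕ

def rlk (k i : ℕ) : List ℕ := cond (Nat.blt i k) (unit i) []

def Cert.Rs (D : Cert) : List (List ℕ × List ℕ) := D.cl.map (fun q => (rlk D.k q.2.1, q.2.2))

structure Cert.OK (D : Cert) : Prop where
  chk : ∀ v < D.R, ∀ c < D.C, chkE D.E D.P D.rel (rlk D.k) D.isSub D.R D.C D.k D.wd D.mask D.R v c = true
  cl : ∀ q ∈ D.cl, chkCl D.E D.rel D.R D.C D.k D.wd D.mask D.R q = true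
  var : ∀ j < D.k, chkVar D.R D.j0 D.j1 D.Rs D.m1 D.m2 D.lam j = true
  ho1 : chkLin D.R D.Rs (smulV D.o1 (unit D.j0)) [] D.l1 = true
  ho2 : chkLin D.R D.Rs (smulV D.o2 (unit D.j1)) [] D.l2 = true
  p1 : 0 < D.o1
  p2 : 0 < D.o2
  hR : 0 < D.R

theorem bound_of_vals {Γ : Type*} [Group Γ] (D : Cert) (hD : D.OK) (val : ℕ → Γ) (K : Subgroup Γ) [Finite K]
    (hcen : ∀ j < D.k, ∀ g, wv val (D.rel j) * g = g * wv val (D.rel j))
    (hN : ∀ j < D.k, wv val (D.rel j) ^ D.R = 1)
    (hnorm : ∀ i, D.k ≤ i → wv val (D.rel i) = 1)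
    (hsub : ∀ c, D.isSub c = true → val c ∈ K)
    (inv : ℕ → ℕ) (hinv : ∀ c < D.C, inv c < D.C ∧ val (inv c) = (val c)⁻¹)
    (A : Subgroup Γ) (hA : ∀ j < D.k, wv val (D.rel j) ∈ A) (hKA : ∀ x ∈ K, x ∈ A → x = 1) :
    Finite (closure {x | ∃ c < D.C, x = val c}) ∧
    Nat.card (closure {x | ∃ c < D.C, x = val c}) ≤ D.R * (Nat.card K * (D.o1 * D.o2)) := by
  set cen : ℕ → Γ := fun j => if j < D.k then wv val (D.rel j) else 1 with hcendef
  apply main_bound val K cen D.E D.P D.rel (rlk D.k) D.isSub D.R D.C D.k D.wd D.mask D.R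
    (by
      intro j g
      by_cases hj : j < D.k
      · simp only [hcendef, if_pos hj]; exact hcen j hj g
      · simp only [hcendef, if_neg hj]; simp)
    (by
      intro j
      by_cases hj : j < D.k
      · simp only [hcendef, if_pos hj]; exact hN j hj
      · simp only [hcendef, if_neg hj]; simp)
    (by
      intro i
      by_cases hi : i < D.k
      · have : rlk D.k i = unit i := by
          unfold rlk
          rw [show Nat.blt i D.k = true by rw [Nat.blt_eq]; exact hi]; rfl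
        rw [this, cv_unit, zero_add]
        simp only [hcendef, if_pos hi]
      · have : rlk D.k i = [] := by
          unfold rlk
          have : Nat.blt i D.k = false := by
            cases h : Nat.blt i D.k
            · rfl
            · exact absurd (by rw [Nat.blt_eq] at h; exact h) hi
          rw [this]; rfl
        rw [this, hnorm i (by omega)]; rfl)
    hsub hD.chk inv hinv hD.hR A
    (by
      intro j
      by_cases hj : j < D.k
      · simp only [hcendef, if_pos hj]; exact hA j hj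
      · simp only [hcendef, if_neg hj]; exact A.one_mem)
    hKA D.cl hD.cl
    (by
      intro j hj
      simp only [hcendef, if_neg (by omega : ¬ j < D.k)])
    D.j0 D.j1 D.o1 D.o2 D.m1 D.m2 D.lam D.l1 D.l2 hD.p1 hD.p2 hD.var hD.ho1 hD.ho2

/-- six letters. -/
def lv {α : Type*} [Group α] (x y z : α) (k : ℕ) : α :=
  if k = 0 then x else if k = 1 then x⁻¹ else if k = 2 then y else if k = 3 then y⁻¹ else
    if k = 4 then z else if k = 5 then z⁻¹ else 1

theorem map_lv {α β : Type*} [Group α] [Group β] (σ : α →* β) (x y z : α) (k : ℕ) :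
    σ (lv x y z k) = lv (σ x) (σ y) (σ z) k := by
  unfold lv
  split_ifs <;> simp

def inv6 (c : ℕ) : ℕ := if c = 0 then 1 else if c = 1 then 0 else if c = 2 then 3 else if c = 3 then 2 else
  if c = 4 then 5 else 4

theorem lv_inv6 {α : Type*} [Group α] (x y z : α) : ∀ c < 6, inv6 c < 6 ∧ lv x y z (inv6 c) = (lv x y z c)⁻¹ := by
  intro c hc
  interval_cases c <;> simp [inv6, lv]

theorem wv_replicate {α : Type*} [Monoid α] (val : ℕ → α) (n c : ℕ) : wv val (List.replicate n c) = val c ^ n := by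
  simp [wv]

def normList (p q m : ℕ) (R1 : List ℕ) : List (List ℕ) :=
  [List.replicate p 0, List.replicate q 2, [2, 0, 3] ++ List.replicate m 1, R1,
    [0, 1], [1, 0], [2, 3], [3, 2], [4, 5], [5, 4], []]

theorem norm_vals {α : Type*} [Group α] (a b c : α) (p q m : ℕ) (R1 : List ℕ) (ha : a ^ p = 1) (hb : b ^ q = 1)
    (hab : b * a * b⁻¹ = a ^ m) (h1 : wv (lv a b c) R1 = 1) : ∀ r ∈ normList p q m R1, wv (lv a b c) r = 1 := by
  intro r hr
  simp only [normList, List.mem_cons, List.not_mem_nil, or_false] at hr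
  rcases hr with rfl | rfl | rfl | rfl | rfl | rfl | rfl | rfl | rfl | rfl | rfl
  · rw [wv_replicate]; simpa [lv] using ha
  · rw [wv_replicate]; simpa [lv] using hb
  · rw [wv_append, wv_replicate]
    have : wv (lv a b c) [2, 0, 3] = b * a * b⁻¹ := by simp [wv, lv, mul_assoc]
    rw [this, hab]
    simp [lv]
  · exact h1
  all_goals simp [wv, lv]

theorem vals_of_norm {α : Type*} [Group α] (a b c : α) (p q m : ℕ) (R1 : List ℕ)
    (h : ∀ r ∈ normList p q m R1, wv (lv a b c) r = 1) : a ^ p = 1 ∧ b ^ q = 1 ∧ b * a * b⁻¹ = a ^ m := by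
  refine ⟨?_, ?_, ?_⟩
  · have := h (List.replicate p 0) (by simp [normList])
    rw [wv_replicate] at this; simpa [lv] using this
  · have := h (List.replicate q 2) (by simp [normList])
    rw [wv_replicate] at this; simpa [lv] using this
  · have := h ([2, 0, 3] ++ List.replicate m 1) (by simp [normList])
    rw [wv_append, wv_replicate] at this
    have e : wv (lv a b c) [2, 0, 3] = b * a * b⁻¹ := by simp [wv, lv, mul_assoc]
    rw [e] at this
    have e2 : lv a b c 1 = a⁻¹ := by simp [lv]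
    rw [e2, inv_pow] at this
    exact mul_inv_eq_one.1 this

/-- the bound for the kernel of a stem extension. -/
theorem stem_bound {Γ G : Type*} [Group Γ] [Group G] [Finite Γ] (σ : Γ →* G) (hσ : IsStemExtension σ)
    (D : Cert) (hD : D.OK) (hC : D.C = 6) (hsubD : ∀ c, D.isSub c = true → c < 4) (hR1 : 1 < D.R)
    (u v w : G) (p q m : ℕ) (hu : orderOf u = p) (hv : orderOf v = q) (hp : 0 < p) (hq : 0 < q)
    (hpq : Nat.Coprime p q) (hconj : v * u * v⁻¹ = u ^ m)
    (hgen : closure ({u, v, w} : Set G) = ⊤) (hrelG : ∀ i, wv (lv u v w) (D.rel i) = 1)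
    (hcard : Nat.card G = D.R * (p * q)) (hpN : Nat.Coprime p D.R) (hqN : Nat.Coprime q D.R)
    (R1 : List ℕ) (hR1G : wv (lv u v w) R1 = 1) (e' : ℕ)
    (he' : (1 + e' * R1.count 4) % D.R = (e' * R1.count 5) % D.R)
    (hnormW : ∀ i, D.k ≤ i → D.rel i ∈ normList p q m R1) :
    Nat.card σ.ker ≤ D.o1 * D.o2 := by
  have hcen : ∀ c, σ c = 1 → ∀ g, c * g = g * c := fun c hc g =>
    (mem_center_iff.1 (hσ.2.1 (MonoidHom.mem_ker.2 hc)) g).symm
  have : Finite G := Finite.of_surjective σ hσ.1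
  have hexp : ∀ z, σ z = 1 → z ^ D.R = 1 := by
    intro z hz
    have i1 : (zpowers u).index = D.R * q := by
      have := Subgroup.card_mul_index (zpowers u)
      rw [Nat.card_zpowers, hu, hcard] at this
      have e : p * (zpowers u).index = p * (D.R * q) := by rw [this]; ring
      exact Nat.eq_of_mul_eq_mul_left hp e
    have i2 : (zpowers v).index = D.R * p := by
      have := Subgroup.card_mul_index (zpowers v)
      rw [Nat.card_zpowers, hv, hcard] at this
      have e : q * (zpowers v).index = q * (D.R * p) := by rw [this]; ring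
      exact Nat.eq_of_mul_eq_mul_left hq e
    have a1 := pow_index_cyclic σ hσ u z (MonoidHom.mem_ker.2 hz)
    have a2 := pow_index_cyclic σ hσ v z (MonoidHom.mem_ker.2 hz)
    rw [i1] at a1
    rw [i2] at a2
    have a3 := pow_gcd_eq_one.2 ⟨a1, a2⟩
    rwa [Nat.gcd_mul_left, Nat.Coprime.gcd_eq_one hpq.symm, mul_one] at a3
  obtain ⟨a, ha1, ha2⟩ := exists_lift_pow σ hcen hσ.1 D.R hexp hR1 u p (by rw [← hu, pow_orderOf_eq_one]) hpN
  obtain ⟨b, hb1, hb2⟩ := exists_lift_pow σ hcen hσ.1 D.R hexp hR1 v q (by rw [← hv, pow_orderOf_eq_one]) hqN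
  have hab : b * a * b⁻¹ = a ^ m := by
    apply lift_unique σ hcen D.R hexp p hpN
    · rw [map_mul, map_mul, map_inv, map_pow, ha1, hb1, hconj]
    · rw [conj_pow, ha2]; group
    · rw [← pow_mul, mul_comm, pow_mul, ha2, one_pow]
  obtain ⟨w0, hw0⟩ := hσ.1 w
  obtain ⟨st, hst⟩ : ∃ y, y = wv (lv a b w0) R1 := ⟨_, rfl⟩
  have hkst : σ st = 1 := by
    rw [hst, map_wv, ← hR1G]
    congr 1
    funext k
    rw [map_lv, ha1, hb1, hw0]
  obtain ⟨s, hs⟩ : ∃ y, y = st ^ e' := ⟨_, rfl⟩
  have hks : σ s = 1 := by rw [hs, map_pow, hkst, one_pow]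
  have hksi : σ s⁻¹ = 1 := by rw [map_inv, hks, inv_one]
  obtain ⟨c, hcdef⟩ : ∃ y, y = w0 * s := ⟨_, rfl⟩
  have hσc : σ c = w := by rw [hcdef, map_mul, hks, mul_one, hw0]
  have hn1 : wv (lv a b c) R1 = 1 := by
    have e : lv a b c = tw (tw (lv a b w0) 4 s) 5 s⁻¹ := by
      funext d
      unfold tw lv
      by_cases h5 : d = 5
      · subst h5
        simp only [hcdef]
        norm_num
        exact (hcen _ hksi _)
      · by_cases h4 : d = 4
        · subst h4
          simp [hcdef]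
        · simp [h4, h5]
    rw [e, wv_tw _ _ _ (hcen _ hksi), wv_tw _ _ _ (hcen _ hks), ← hst, hs, inv_pow, ← pow_mul, ← pow_mul,
      ← pow_succ', mul_inv_eq_one, pow_eq_pow_mod _ (hexp st hkst), add_comm, he', ← pow_eq_pow_mod _ (hexp st hkst)]
  obtain ⟨val, hval⟩ : ∃ y, y = lv a b c := ⟨_, rfl⟩
  have hσval : ∀ d, σ (val d) = lv u v w d := by
    intro d; rw [hval, map_lv, ha1, hb1, hσc]
  have hker : ∀ i, σ (wv val (D.rel i)) = 1 := by
    intro i
    rw [map_wv, ← hrelG i]
    congr 1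
    funext d
    exact hσval d
  obtain ⟨k1, k2, k3⟩ := frob_K σ a b p q m ha2 hb2 hab hp hq (by rw [ha1, hu]) (by rw [hb1, hv]) hpq
  have hbd := bound_of_vals D hD val (closure ({a, b} : Set Γ))
    (fun j _ g => hcen _ (hker j) g) (fun j _ => hexp _ (hker j))
    (fun i hi => by rw [hval]; exact norm_vals a b c p q m R1 ha2 hb2 hab hn1 _ (hnormW i hi))
    (by
      intro d hd
      have := hsubD d hd
      have hA : a ∈ closure ({a, b} : Set Γ) := subset_closure (by simp)
      have hB : b ∈ closure ({a, b} : Set Γ) := subset_closure (by simp)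
      rw [hval]
      interval_cases d
      · simpa [lv] using hA
      · simpa [lv] using hA
      · simpa [lv] using hB
      · simpa [lv] using hB)
    inv6 (by rw [hC, hval]; exact lv_inv6 a b c) σ.ker (fun j _ => MonoidHom.mem_ker.2 (hker j))
    (fun x hx hx' => k3 x hx (MonoidHom.mem_ker.1 hx'))
  rw [hC] at hbd
  set S : Set Γ := {y | ∃ d < 6, y = val d} with hS
  have v0 : val 0 = a := by simp [hval, lv]
  have v2 : val 2 = b := by simp [hval, lv]
  have v4 : val 4 = c := by simp [hval, lv]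
  have hcl : closure (σ '' S) = ⊤ := by
    rw [eq_top_iff, ← hgen, closure_le]
    rintro y (rfl | rfl | rfl)
    · exact subset_closure ⟨val 0, ⟨0, by norm_num, rfl⟩, by rw [v0, ha1]⟩
    · exact subset_closure ⟨val 2, ⟨2, by norm_num, rfl⟩, by rw [v2, hb1]⟩
    · exact subset_closure ⟨val 4, ⟨4, by norm_num, rfl⟩, by rw [v4, hσc]⟩
  have hkerM : ∀ z, σ z = 1 → z ∈ closure S := by
    intro z hz
    have h1 := pow_index_mem σ hσ S z (MonoidHom.mem_ker.2 hz)
    rwa [hcl, index_top, pow_one] at h1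
  let φ : closure S →* G := σ.comp (closure S).subtype
  have h1 := Subgroup.card_mul_index φ.ker
  rw [Subgroup.index_ker] at h1
  have h2 : Nat.card σ.ker ≤ Nat.card φ.ker :=
    Nat.card_le_card_of_injective
      (fun z : σ.ker => (⟨⟨z.1, hkerM z.1 (MonoidHom.mem_ker.1 z.2)⟩, MonoidHom.mem_ker.2 (MonoidHom.mem_ker.1 z.2)⟩ : φ.ker))
      (by
        intro z z' h
        apply Subtype.ext
        exact congrArg (fun q : φ.ker => ((q : closure S) : Γ)) h)
  have h4 : φ.range = ⊤ := by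
    rw [eq_top_iff, ← hgen, closure_le]
    rintro y (rfl | rfl | rfl)
    · exact ⟨⟨val 0, subset_closure ⟨0, by norm_num, rfl⟩⟩, by show σ (val 0) = _; rw [v0, ha1]⟩
    · exact ⟨⟨val 2, subset_closure ⟨2, by norm_num, rfl⟩⟩, by show σ (val 2) = _; rw [v2, hb1]⟩
    · exact ⟨⟨val 4, subset_closure ⟨4, by norm_num, rfl⟩⟩, by show σ (val 4) = _; rw [v4, hσc]⟩
  have h5 : Nat.card φ.range = D.R * (p * q) := by rw [h4, Subgroup.card_top, hcard]
  have h7 : Nat.card σ.ker * (D.R * (p * q)) ≤ (D.o1 * D.o2) * (D.R * (p * q)) := by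
    calc Nat.card σ.ker * (D.R * (p * q)) ≤ Nat.card φ.ker * Nat.card φ.range := by
          rw [h5]; exact Nat.mul_le_mul_right _ h2
      _ = Nat.card (closure S) := h1
      _ ≤ D.R * (Nat.card (closure ({a, b} : Set Γ)) * (D.o1 * D.o2)) := hbd.2
      _ ≤ D.R * ((p * q) * (D.o1 * D.o2)) := Nat.mul_le_mul_left _ (Nat.mul_le_mul_right _ k2)
      _ = _ := by ring
  exact Nat.le_of_mul_le_mul_right h7 (Nat.mul_pos hD.hR (Nat.mul_pos hp hq))

end Cfsg.Agent.Lib.Helper10.TCL
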