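import Cfsg.Agent.Lib.Helper10.J3M.Lift

/-!
A static certificate for coset enumeration with central labels.  Every entry `v · c = u` of a complete coset table
carries a vector of exponents; it means `rep v * val c = k * cv L * rep u` with `k` in the subgroup and `cv L` the
product of the corresponding powers of fixed central elements.  Relators are only required to have central values.
-/

set_option autoImplicit false

namespace Cfsg.Agent.Lib.Helper10.TCL

open Cfsg.Agent.Lib.Helper10.TCS

/-! vectors of exponents -/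

def addV : List ℕ → List ℕ → List ℕ
  | [], l => l
  | a :: s, [] => a :: s
  | a :: s, b :: t => Nat.add a b :: addV s t

def smulV (n : ℕ) : List ℕ → List ℕ
  | [] => []
  | a :: s => Nat.mul n a :: smulV n s

def allZ (N : ℕ) : List ℕ → Bool
  | [] => true
  | b :: t => Nat.beq (Nat.mod b N) 0 && allZ N t

def eqMod (N : ℕ) : List ℕ → List ℕ → Bool
  | [], l => allZ N l
  | a :: s, [] => Nat.beq (Nat.mod a N) 0 && allZ N s
  | a :: s, b :: t => Nat.beq (Nat.mod a N) (Nat.mod b N) && eqMod N s t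

def unp (wd mask : ℕ) : ℕ → ℕ → List ℕ
  | 0, _ => []
  | k + 1, L => Nat.land L mask :: unp wd mask k (Nat.shiftRight L wd)

section cv
variable {Γ : Type*} [Group Γ] (cen : ℕ → Γ)

/-- the value of a vector of exponents. -/
def cv : ℕ → List ℕ → Γ
  | _, [] => 1
  | j, e :: t => cen j ^ e * cv (j + 1) t

variable (hc : ∀ j g, cen j * g = g * cen j)
include hc

theorem cv_central : ∀ (L : List ℕ) (j : ℕ) (g : Γ), cv cen j L * g = g * cv cen j L
  | [], j, g => by simp [cv]
  | e :: t, j, g => by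
    have h1 : ∀ g, cen j ^ e * g = g * cen j ^ e := by
      intro g
      exact ((Commute.pow_left (show Commute (cen j) g from hc j g) e)).eq
    rw [cv, mul_assoc, cv_central t (j + 1) g, ← mul_assoc, h1, mul_assoc]

theorem cv_addV : ∀ (L L' : List ℕ) (j : ℕ), cv cen j (addV L L') = cv cen j L * cv cen j L'
  | [], l, j => by simp [addV, cv]
  | a :: s, [], j => by simp [addV, cv]
  | a :: s, b :: t, j => by
    have h := cv_central cen hc s (j + 1) (cen j ^ b)
    show cen j ^ (a + b) * cv cen (j + 1) (addV s t) = _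
    rw [cv_addV s t (j + 1), cv, cv, pow_add]
    calc cen j ^ a * cen j ^ b * (cv cen (j + 1) s * cv cen (j + 1) t)
        = cen j ^ a * (cen j ^ b * cv cen (j + 1) s) * cv cen (j + 1) t := by group
      _ = cen j ^ a * (cv cen (j + 1) s * cen j ^ b) * cv cen (j + 1) t := by rw [h]
      _ = _ := by group

theorem cv_smulV (n : ℕ) : ∀ (L : List ℕ) (j : ℕ), cv cen j (smulV n L) = cv cen j L ^ n
  | [], j => by simp [smulV, cv]
  | a :: s, j => by
    have h : Commute (cen j ^ a) (cv cen (j + 1) s) := (cv_central cen hc s (j + 1) (cen j ^ a)).symm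
    show cen j ^ (n * a) * cv cen (j + 1) (smulV n s) = _
    rw [cv_smulV n s (j + 1), cv, h.mul_pow, mul_comm n a, pow_mul]

omit hc in
theorem cv_allZ (N : ℕ) (hN : ∀ j, cen j ^ N = 1) : ∀ (L : List ℕ) (j : ℕ), allZ N L = true → cv cen j L = 1
  | [], _, _ => rfl
  | b :: t, j, h => by
    rw [allZ, Bool.and_eq_true] at h
    have h1 : b % N = 0 := Nat.eq_of_beq_eq_true h.1
    rw [cv, cv_allZ N hN t (j + 1) h.2, pow_eq_pow_mod b (hN j), h1]
    simp

omit hc in
theorem cv_eqMod (N : ℕ) (hN : ∀ j, cen j ^ N = 1) : ∀ (L L' : List ℕ) (j : ℕ), eqMod N L L' = true →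
    cv cen j L = cv cen j L'
  | [], l, j, h => by
    rw [eqMod] at h
    rw [cv_allZ cen N hN l j h]; rfl
  | a :: s, [], j, h => by
    rw [eqMod] at h
    exact cv_allZ cen N hN (a :: s) j h
  | a :: s, b :: t, j, h => by
    rw [eqMod, Bool.and_eq_true] at h
    have h1 : a % N = b % N := Nat.eq_of_beq_eq_true h.1
    rw [cv, cv, cv_eqMod N hN s t (j + 1) h.2, pow_eq_pow_mod a (hN j), pow_eq_pow_mod b (hN j), h1]

omit hc in
theorem cv_mem (Z : Subgroup Γ) (hZ : ∀ j, cen j ∈ Z) : ∀ (L : List ℕ) (j : ℕ), cv cen j L ∈ Z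
  | [], _ => Z.one_mem
  | e :: t, j => Z.mul_mem (Z.pow_mem (hZ j) e) (cv_mem Z hZ t (j + 1))

end cv

/-! the checker -/
section checker
variable (E P : ℕ → ℕ) (rel rl : ℕ → List ℕ) (isSub : ℕ → Bool) (R C k wd mask N : ℕ)

def eT (v c : ℕ) : ℕ := Nat.land (E (Nat.add (Nat.mul v C) c)) 131071
def eS (v c : ℕ) : ℕ := Nat.land (Nat.shiftRight (E (Nat.add (Nat.mul v C) c)) 17) 1048575
def eK (v c : ℕ) : ℕ := Nat.land (Nat.shiftRight (E (Nat.add (Nat.mul v C) c)) 37) 3
def eI (v c : ℕ) : ℕ := Nat.land (Nat.shiftRight (E (Nat.add (Nat.mul v C) c)) 39) 63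
def eP (v c : ℕ) : ℕ := Nat.land (Nat.shiftRight (E (Nat.add (Nat.mul v C) c)) 45) 255
def eL (v c : ℕ) : List ℕ := unp wd mask k (Nat.shiftRight (E (Nat.add (Nat.mul v C) c)) 53)
def pPar (u : ℕ) : ℕ := Nat.land (P u) 131071
def pLet (u : ℕ) : ℕ := Nat.shiftRight (P u) 17

def walkOk (τ : ℕ) : List ℕ → ℕ → ℕ → List ℕ → List ℕ → Bool
  | [], u, v, acc, tg => Nat.beq u v && eqMod N acc tg
  | c :: w, u, v, acc, tg => Nat.blt c C && (Nat.blt (eS E C u c) τ &&
      walkOk τ w (eT E C u c) v (addV acc (eL E C k wd mask u c)) tg)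

def chkRel (v c : ℕ) (tg : List ℕ) : List ℕ → Bool
  | [] => false
  | d :: w => Nat.beq d c && walkOk E C k wd mask N (eS E C v c) w (eT E C v c) v (eL E C k wd mask v c) tg

def chkE (v c : ℕ) : Bool :=
  Nat.blt (eT E C v c) R &&
    cond (Nat.beq (eK E C v c) 0)
      (Nat.blt v (eT E C v c) && (Nat.beq (pPar P (eT E C v c)) v && (Nat.beq (pLet P (eT E C v c)) c &&
        eqMod N (eL E C k wd mask v c) [])))
      (cond (Nat.beq (eK E C v c) 1)
        (Nat.beq v 0 && (Nat.beq (eT E C v c) 0 && (isSub c && eqMod N (eL E C k wd mask v c) [])))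
        (chkRel E C k wd mask N v c (rl (eI E C v c)) ((rel (eI E C v c)).rotate (eP E C v c))))

/-- the check of the entry of index `i`. -/
def chkI (i : ℕ) : Bool :=
  Nat.ble (Nat.mul R C) i || chkE E P rel rl isSub R C k wd mask N (Nat.div i C) (Nat.mod i C)

/-- a closed scan of a relator: row, index of the relator, sum of the labels. -/
def chkCl (q : ℕ × ℕ × List ℕ) : Bool :=
  Nat.blt q.1 R && walkOk E C k wd mask N 1048576 (rel q.2.1) q.1 q.1 [] q.2.2

end checker

section sound
variable {Γ : Type*} [Group Γ] (val : ℕ → Γ) (K : Subgroup Γ) (cen : ℕ → Γ)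
variable (E P : ℕ → ℕ) (rel rl : ℕ → List ℕ) (isSub : ℕ → Bool) (R C k wd mask N : ℕ)

/-- the representatives of the cosets. -/
noncomputable def rep : ℕ → Γ
  | 0 => 1
  | n + 1 => if h : pPar P (n + 1) < n + 1 then rep (pPar P (n + 1)) * val (pLet P (n + 1)) else 1
decreasing_by exact h

theorem rep_zero : rep val P 0 = 1 := by rw [rep]

theorem rep_succ (u : ℕ) (h0 : 0 < u) (h : pPar P u < u) :
    rep val P u = rep val P (pPar P u) * val (pLet P u) := by
  obtain ⟨n, rfl⟩ : ∃ n, u = n + 1 := ⟨u - 1, by omega⟩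
  rw [rep, dif_pos h]

def Valid (v c : ℕ) : Prop :=
  ∃ kk ∈ K, rep val P v * val c = kk * cv cen 0 (eL E C k wd mask v c) * rep val P (eT E C v c)

variable (hc : ∀ j g, cen j * g = g * cen j) (hN : ∀ j, cen j ^ N = 1)
include hc hN

theorem walk_sound (τ : ℕ) (hτ : ∀ u < R, ∀ c < C, eS E C u c < τ → Valid val K cen E P C k wd mask u c)
    (hT : ∀ u < R, ∀ c < C, eT E C u c < R) :
    ∀ (w : List ℕ) (u v : ℕ) (acc tg : List ℕ), u < R → walkOk E C k wd mask N τ w u v acc tg = true →
      ∃ kk ∈ K, ∃ z : Γ, (∀ g, z * g = g * z) ∧ rep val P u * wv val w = kk * z * rep val P v ∧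
        cv cen 0 acc * z = cv cen 0 tg := by
  intro w
  induction w with
  | nil =>
    intro u v acc tg _ h
    unfold walkOk at h
    rw [Bool.and_eq_true] at h
    have : u = v := Nat.eq_of_beq_eq_true h.1
    refine ⟨1, K.one_mem, 1, by simp, by rw [this, wv_nil]; simp, ?_⟩
    rw [mul_one]
    exact cv_eqMod cen N hN _ _ 0 h.2
  | cons c w ih =>
    intro u v acc tg hu h
    unfold walkOk at h
    simp only [Bool.and_eq_true, Nat.blt_eq] at h
    obtain ⟨hcC, hs, hw⟩ := h
    obtain ⟨k1, hk1, e1⟩ := hτ u hu c hcC hs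
    obtain ⟨k2, hk2, z2, hz2, e2, e3⟩ := ih _ v _ tg (hT u hu c hcC) hw
    set zL := cv cen 0 (eL E C k wd mask u c) with hzL
    have hzLc : ∀ g, zL * g = g * zL := cv_central cen hc _ 0
    refine ⟨k1 * k2, K.mul_mem hk1 hk2, zL * z2, ?_, ?_, ?_⟩
    · intro g
      rw [mul_assoc, hz2, ← mul_assoc, hzLc, mul_assoc]
    · rw [wv_cons, ← mul_assoc, e1, mul_assoc, e2]
      calc k1 * zL * (k2 * z2 * rep val P v) = k1 * (zL * k2) * z2 * rep val P v := by group
        _ = k1 * (k2 * zL) * z2 * rep val P v := by rw [hzLc]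
        _ = _ := by group
    · rw [cv_addV cen hc] at e3
      rw [← mul_assoc]
      exact e3

variable (hrel : ∀ i, wv val (rel i) = cv cen 0 (rl i)) (hsub : ∀ c, isSub c = true → val c ∈ K)
  (hchk : ∀ v < R, ∀ c < C, chkE E P rel rl isSub R C k wd mask N v c = true)
include hrel hsub hchk

omit hc hN hrel hsub in
theorem tgt_lt : ∀ u < R, ∀ c < C, eT E C u c < R := by
  intro u hu c hcC
  have h := hchk u hu c hcC
  unfold chkE at h
  rw [Bool.and_eq_true, Nat.blt_eq] at h
  exact h.1

theorem all_valid : ∀ v < R, ∀ c < C, Valid val K cen E P C k wd mask v c := by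
  have hT := tgt_lt E P rel rl isSub R C k wd mask N hchk
  have key : ∀ τ v, v < R → ∀ c < C, eS E C v c = τ → Valid val K cen E P C k wd mask v c := by
    intro τ
    induction τ using Nat.strong_induction_on with
    | _ τ ih =>
      intro v hv c hcC hs
      have h := hchk v hv c hcC
      unfold chkE at h
      rw [Bool.and_eq_true] at h
      have h := h.2
      cases hk0 : Nat.beq (eK E C v c) 0
      · rw [hk0] at h
        simp only [cond_false] at h
        cases hk1 : Nat.beq (eK E C v c) 1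
        · rw [hk1] at h
          simp only [cond_false] at h
          have hcen : ∀ g, wv val (rel (eI E C v c)) * g = g * wv val (rel (eI E C v c)) := by
            rw [hrel]; exact cv_central cen hc _ 0
          have hr := wv_rotate_central val _ hcen (eP E C v c)
          rw [hrel] at hr
          cases hw : (rel (eI E C v c)).rotate (eP E C v c) with
          | nil =>
            rw [hw] at h
            exact absurd h (by simp [chkRel])
          | cons d w =>
            rw [hw] at h hr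
            unfold chkRel at h
            rw [Bool.and_eq_true] at h
            have hd : d = c := Nat.eq_of_beq_eq_true h.1
            rw [hd, wv_cons] at hr
            obtain ⟨k2, hk2, z, hz, e2, e3⟩ := walk_sound val K cen E P R C k wd mask N hc hN (eS E C v c)
              (fun u hu c' hc' hlt => ih _ (hs ▸ hlt) u hu c' hc' rfl) hT w _ v _ _ (hT v hv c hcC) h.2
            set ζ := cv cen 0 (rl (eI E C v c)) with hζ
            set zL := cv cen 0 (eL E C k wd mask v c) with hzL
            have hzLc : ∀ g, zL * g = g * zL := cv_central cen hc _ 0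
            refine ⟨k2⁻¹, K.inv_mem hk2, ?_⟩
            -- rep T * wv w = k2 * z * rep v,  zL * z = ζ,  val c * wv w = ζ
            have e4 : val c = zL * z * (wv val w)⁻¹ := by rw [e3, ← hr]; group
            have e5 : rep val P v = z⁻¹ * (k2⁻¹ * (rep val P (eT E C v c) * wv val w)) := by
              rw [e2]; 
              calc rep val P v = z⁻¹ * (k2⁻¹ * k2) * z * rep val P v := by group
                _ = _ := by group
            have hzi : ∀ g, z⁻¹ * g = g * z⁻¹ := by
              intro g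
              have := hz (z⁻¹ * g * z⁻¹)
              calc z⁻¹ * g = z⁻¹ * g * z⁻¹ * z := by group
                _ = z * (z⁻¹ * g * z⁻¹) := (hz _).symm
                _ = _ := by group
            calc rep val P v * val c
                = z⁻¹ * (k2⁻¹ * (rep val P (eT E C v c) * wv val w)) * (zL * z * (wv val w)⁻¹) := by
                  rw [← e5, ← e4]
              _ = z⁻¹ * ((k2⁻¹ * (rep val P (eT E C v c) * wv val w)) * zL) * z * (wv val w)⁻¹ := by group
              _ = z⁻¹ * (zL * (k2⁻¹ * (rep val P (eT E C v c) * wv val w))) * z * (wv val w)⁻¹ := by rw [hzLc]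
              _ = z⁻¹ * ((zL * (k2⁻¹ * (rep val P (eT E C v c) * wv val w))) * z) * (wv val w)⁻¹ := by group
              _ = z⁻¹ * (z * (zL * (k2⁻¹ * (rep val P (eT E C v c) * wv val w)))) * (wv val w)⁻¹ := by rw [hz]
              _ = (zL * k2⁻¹) * rep val P (eT E C v c) := by group
              _ = k2⁻¹ * zL * rep val P (eT E C v c) := by rw [hzLc]
        · rw [hk1] at h
          simp only [cond_true, Bool.and_eq_true] at h
          have e1 : v = 0 := Nat.eq_of_beq_eq_true h.1
          have e2 : eT E C v c = 0 := Nat.eq_of_beq_eq_true h.2.1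
          have e3 := cv_eqMod cen N hN _ _ 0 h.2.2.2
          refine ⟨val c, hsub c h.2.2.1, ?_⟩
          rw [e3, e2, e1, rep_zero]
          simp [cv]
      · rw [hk0] at h
        simp only [cond_true, Bool.and_eq_true, Nat.blt_eq] at h
        have e1 : pPar P (eT E C v c) = v := Nat.eq_of_beq_eq_true h.2.1
        have e2 : pLet P (eT E C v c) = c := Nat.eq_of_beq_eq_true h.2.2.1
        have e3 := cv_eqMod cen N hN _ _ 0 h.2.2.2
        refine ⟨1, K.one_mem, ?_⟩
        rw [e3, rep_succ val P (eT E C v c) (by omega) (by omega), e1, e2]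
        simp [cv]
  intro v hv c hcC
  exact key _ v hv c hcC rfl

/-- a closed scan gives a relation between the central elements. -/
theorem closed_rel (Z : Subgroup Γ) (hZ : ∀ j, cen j ∈ Z) (hKZ : ∀ x ∈ K, x ∈ Z → x = 1)
    (q : ℕ × ℕ × List ℕ) (hq : chkCl E rel R C k wd mask N q = true) :
    cv cen 0 (rl q.2.1) = cv cen 0 q.2.2 := by
  have hT := tgt_lt E P rel rl isSub R C k wd mask N hchk
  have hV := all_valid val K cen E P rel rl isSub R C k wd mask N hc hN hrel hsub hchk
  unfold chkCl at hq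
  rw [Bool.and_eq_true, Nat.blt_eq] at hq
  obtain ⟨kk, hkk, z, hz, e2, e3⟩ := walk_sound val K cen E P R C k wd mask N hc hN 1048576
    (fun u hu c hcC _ => hV u hu c hcC) hT _ _ _ _ _ hq.1 hq.2
  rw [hrel] at e2
  have e4 : z = cv cen 0 q.2.2 := by rw [← e3]; simp [cv]
  have e5 : kk = cv cen 0 (rl q.2.1) * z⁻¹ := by
    have h1 := cv_central cen hc (rl q.2.1) 0 (rep val P q.1)
    rw [← h1] at e2
    have h2 := mul_right_cancel e2
    rw [h2]; group
  have e6 : kk = 1 := by
    apply hKZ kk hkk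
    rw [e5, e4]
    exact Z.mul_mem (cv_mem cen Z hZ _ 0) (Z.inv_mem (cv_mem cen Z hZ _ 0))
  rw [e6] at e5
  rw [← e4]
  exact (mul_inv_eq_one.1 e5.symm)

variable (inv : ℕ → ℕ) (hinv : ∀ c < C, inv c < C ∧ val (inv c) = (val c)⁻¹) (hR : 0 < R)
include hinv hR

theorem cover (Z : Subgroup Γ) (hZ : ∀ j, cen j ∈ Z) (hZc : ∀ z ∈ Z, ∀ g, z * g = g * z) :
    ∀ g ∈ Subgroup.closure {x | ∃ c < C, x = val c}, ∃ v < R, ∃ kk ∈ K, ∃ z ∈ Z, g = kk * z * rep val P v := by
  have hT := tgt_lt E P rel rl isSub R C k wd mask N hchk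
  have hV := all_valid val K cen E P rel rl isSub R C k wd mask N hc hN hrel hsub hchk
  have step : ∀ g : Γ, (∃ v < R, ∃ kk ∈ K, ∃ z ∈ Z, g = kk * z * rep val P v) → ∀ c < C,
      ∃ v < R, ∃ kk ∈ K, ∃ z ∈ Z, g * val c = kk * z * rep val P v := by
    rintro g ⟨v, hv, k1, hk1, z1, hz1, rfl⟩ c hcC
    obtain ⟨k2, hk2, e⟩ := hV v hv c hcC
    refine ⟨_, hT v hv c hcC, k1 * k2, K.mul_mem hk1 hk2, z1 * cv cen 0 (eL E C k wd mask v c),
      Z.mul_mem hz1 (cv_mem cen Z hZ _ 0), ?_⟩
    rw [mul_assoc, e]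
    calc k1 * z1 * (k2 * cv cen 0 (eL E C k wd mask v c) * rep val P (eT E C v c))
        = k1 * (z1 * k2) * cv cen 0 (eL E C k wd mask v c) * rep val P (eT E C v c) := by group
      _ = k1 * (k2 * z1) * cv cen 0 (eL E C k wd mask v c) * rep val P (eT E C v c) := by rw [hZc z1 hz1]
      _ = _ := by group
  intro g hg
  induction hg using Subgroup.closure_induction_right with
  | one => exact ⟨0, hR, 1, K.one_mem, 1, Z.one_mem, by rw [rep_zero]; simp⟩
  | mul_right x y _ hy ih =>
    obtain ⟨c, hcC, rfl⟩ := hy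
    exact step x ih c hcC
  | mul_inv_cancel x y _ hy ih =>
    obtain ⟨c, hcC, rfl⟩ := hy
    rw [← (hinv c hcC).2]
    exact step x ih _ (hinv c hcC).1

theorem card_le (Z : Subgroup Γ) (hZ : ∀ j, cen j ∈ Z) (hZc : ∀ z ∈ Z, ∀ g, z * g = g * z) [Finite K] [Finite Z] :
    Finite (Subgroup.closure {x | ∃ c < C, x = val c}) ∧
    Nat.card (Subgroup.closure {x | ∃ c < C, x = val c}) ≤ R * (Nat.card K * Nat.card Z) := by
  have hcov := cover val K cen E P rel rl isSub R C k wd mask N hc hN hrel hsub hchk inv hinv hR Z hZ hZc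
  have hex : ∀ g : Subgroup.closure {x | ∃ c < C, x = val c}, ∃ q : Fin R × (K × Z),
      (g : Γ) = (q.2.1 : Γ) * (q.2.2 : Γ) * rep val P q.1 := by
    intro g
    obtain ⟨v, hv, kk, hk, z, hz, e⟩ := hcov g g.2
    exact ⟨(⟨v, hv⟩, ⟨kk, hk⟩, ⟨z, hz⟩), e⟩
  choose f hf using hex
  have hinj : Function.Injective f := by
    intro a b hab
    apply Subtype.ext
    rw [hf a, hf b, hab]
  refine ⟨Finite.of_injective f hinj, ?_⟩
  have := Nat.card_le_card_of_injective f hinj
  rwa [Nat.card_prod, Nat.card_prod, Nat.card_fin] at this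

end sound

end Cfsg.Agent.Lib.Helper10.TCL
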